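import Cfsg.Agent.Lib.Ward.Setup

/-!
# Ward's theorem, part 3: an elementary abelian section `Z` of exponent `q`

`Z` acts on the module `W` through an elementary abelian `q`-group; `S` normalizes `Z`;
`A` (elementary abelian of order `p²`) acts without fixed points on everything. Then `S`
centralizes `Z` modulo the kernel on `W`.
-/

set_option autoImplicit false

namespace Cfsg.Agent.Lib.Ward.Elem

open Cfsg.Agent.Lib.Ward.Norm Cfsg.Agent.Lib.Ward.Setup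

variable {Γ V : Type*} [Group Γ] [Finite Γ] [AddCommGroup V] [Finite V] [DistribMulAction Γ V]

omit [Finite Γ] [Finite V] in
/-- Conjugation and action. -/
theorem conj_smul_smul (g x : Γ) (w : V) : (g * x * g⁻¹) • (g • w) = g • (x • w) := by
  rw [← mul_smul, ← mul_smul]
  congr 1
  group

/-- Basic data on the module. -/
structure Base (p : ℕ) (A : Subgroup Γ) (W : AddSubgroup V) : Prop where
  E : IsE p A
  WA : ∀ a ∈ A, ∀ w ∈ W, a • w ∈ W
  Wfix : ∀ w ∈ W, (∀ a ∈ A, a • w = w) → w = 0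

namespace Base

variable {p : ℕ} {A : Subgroup Γ} {W : AddSubgroup V} (hB : Base p A W)
include hB

/-- `C_R(d)` fixes `C_W(d)` (Frobenius). -/
theorem fr {R : Subgroup Γ} (hR : Inv p A R) (RW : ∀ x ∈ R, ∀ w ∈ W, x • w ∈ W)
    (RV : (Nat.card R).Coprime (Nat.card V)) {d u : Γ} {w : V} (hd : d ∈ A) (hd1 : d ≠ 1)
    (hu : u ∈ R) (hud : d * u = u * d) (hw : w ∈ W) (hdw : d • w = w) : u • w = w := by
  have hE := hB.E
  obtain ⟨b, hb, hbd⟩ := hE.exists_notMem_zpowers hd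
  let W' : AddSubgroup V :=
    { carrier := {w | w ∈ W ∧ d • w = w}
      add_mem' := by
        rintro a c ⟨ha1, ha2⟩ ⟨hc1, hc2⟩
        exact ⟨W.add_mem ha1 hc1, by rw [smul_add, ha2, hc2]⟩
      zero_mem' := ⟨W.zero_mem, smul_zero _⟩
      neg_mem' := by
        rintro a ⟨ha1, ha2⟩
        exact ⟨W.neg_mem ha1, by rw [smul_neg, ha2]⟩ }
  have hJ : u ∈ cen R d := mem_cen.mpr ⟨hu, hud⟩
  refine frob_trivial (cen R d) (a := b) hE.prime (hE.pow b hb)
    (fun y hy => hR.conj_cen hE hb hd hy)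
    (fun y hy hyb => ?_) W' ?_ ?_ ?_ ?_ hJ (⟨hw, hdw⟩ : w ∈ W')
  · obtain ⟨hy1, hy2⟩ := mem_cen.mp hy
    refine hR.eq_one_of_comm hE hd hb hd1 hbd hy1 hy2 ?_
    calc b * y = (b * y * b⁻¹) * b := by group
      _ = y * b := by rw [hyb]
  · rintro y hy w ⟨hw1, hw2⟩
    obtain ⟨hy1, hy2⟩ := mem_cen.mp hy
    refine ⟨RW y hy1 w hw1, ?_⟩
    rw [← mul_smul, hy2, mul_smul, hw2]
  · rintro w ⟨hw1, hw2⟩
    refine ⟨hB.WA b hb w hw1, ?_⟩
    rw [← mul_smul, hE.comm d hd b hb, mul_smul, hw2]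
  · rintro w ⟨hw1, hw2⟩ hw3
    refine hB.Wfix w hw1 fun a ha => ?_
    have hle := hE.le_of_mem hd hb hd1 hbd (MulAction.stabilizer Γ w)
      (MulAction.mem_stabilizer_iff.mpr hw2) (MulAction.mem_stabilizer_iff.mpr hw3)
    exact MulAction.mem_stabilizer_iff.mp (hle ha)
  · intro w _ h0
    have hc : (Nat.card (cen R d)).Coprime (Nat.card V) :=
      Nat.Coprime.coprime_dvd_left (Subgroup.card_dvd_of_le inf_le_left) RV
    exact nsmul_cancel hc h0

/-- Elements commuting with `C_Z(c)` on `W` and fixing `C_W(d)`, fix `[W, C_Z(c)]`. -/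
theorem comm_triv {Z : Subgroup Γ} (hZ : Inv p A Z) (ZW : ∀ x ∈ Z, ∀ w ∈ W, x • w ∈ W)
    (ZV : (Nat.card Z).Coprime (Nat.card V)) {c d y u : Γ} {w : V} (hc : c ∈ A) (hd : d ∈ A)
    (hc1 : c ≠ 1) (hdc : d ∉ Subgroup.zpowers c) (hy : y ∈ Z) (hyc : c * y = y * c)
    (huW : ∀ w ∈ W, u • w ∈ W) (hu : ∀ w ∈ W, d • w = w → u • w = w)
    (hzu : ∀ g ∈ Z, ∀ w ∈ W, (u * g) • w = (g * u) • w) (hw : w ∈ W) :
    u • (y • w - w) = y • w - w := by
  have hE := hB.E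
  have hJ : y ∈ cen Z c := mem_cen.mpr ⟨hy, hyc⟩
  refine comm_fixed (cen Z c) (a := d) hE.prime (hE.pow d hd)
    (fun y hy => hZ.conj_cen hE hd hc hy) (fun y hy hyd => ?_) W ?_ (hB.WA d hd) ?_ u huW ?_ hJ hw
  · obtain ⟨hy1, hy2⟩ := mem_cen.mp hy
    refine hZ.eq_one_of_comm hE hc hd hc1 hdc hy1 hy2 ?_
    calc d * y = (d * y * d⁻¹) * d := by group
      _ = y * d := by rw [hyd]
  · intro y hy w hw
    exact ZW y (mem_cen.mp hy).1 w hw
  · intro w _ h0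
    have hc : (Nat.card (cen Z c)).Coprime (Nat.card V) :=
      Nat.Coprime.coprime_dvd_left (Subgroup.card_dvd_of_le inf_le_left) ZV
    exact nsmul_cancel hc h0
  · intro g hg w hw hdw
    rw [← mul_smul, hzu g (mem_cen.mp hg).1 w hw, mul_smul, hu w hw hdw]

end Base

/-- The stabilizer of a hyperplane `L` with trivial action on `Z / L`. -/
def stabT (Z L : Subgroup Γ) (hLn : ∀ x ∈ Z, ∀ l ∈ L, x * l * x⁻¹ ∈ L) : Subgroup Γ where
  carrier := {g | (∀ x ∈ Z, g * x * g⁻¹ ∈ Z) ∧ (∀ x ∈ Z, g⁻¹ * x * g ∈ Z) ∧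
    ∀ x ∈ Z, x⁻¹ * (g * x * g⁻¹) ∈ L}
  mul_mem' := by
    rintro g₁ g₂ ⟨h1, h2, h3⟩ ⟨k1, k2, k3⟩
    refine ⟨fun x hx => ?_, fun x hx => ?_, fun x hx => ?_⟩
    · have := h1 _ (k1 x hx)
      simpa [mul_assoc] using this
    · have := k2 _ (h2 x hx)
      simpa [mul_assoc] using this
    · have h4 := k3 x hx
      have h5 := h3 _ (k1 x hx)
      have e : x⁻¹ * (g₁ * g₂ * x * (g₁ * g₂)⁻¹) =
          (x⁻¹ * (g₂ * x * g₂⁻¹)) * ((g₂ * x * g₂⁻¹)⁻¹ * (g₁ * (g₂ * x * g₂⁻¹) * g₁⁻¹)) := by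
        group
      rw [e]
      exact L.mul_mem h4 h5
  one_mem' := by
    refine ⟨fun x hx => by simpa using hx, fun x hx => by simpa using hx, fun x hx => ?_⟩
    simpa using L.one_mem
  inv_mem' := by
    rintro g ⟨h1, h2, h3⟩
    refine ⟨fun x hx => ?_, fun x hx => ?_, fun x hx => ?_⟩
    · simpa using h2 x hx
    · simpa using h1 x hx
    · have hy := h2 x hx
      have h4 := h3 _ hy
      have e : (g⁻¹ * x * g)⁻¹ * (g * (g⁻¹ * x * g) * g⁻¹) = ((x⁻¹ * (g⁻¹ * x * g⁻¹⁻¹)))⁻¹ := by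
        group
      rw [e] at h4
      have := L.inv_mem h4
      simpa using this


/-- Two commuting operators of order `q` on `U`: if `y` moves a vector, then some `t y^j` fixes a
vector moved by `y`. -/
theorem exists_fixed_of_pair (U : AddSubgroup V) {t y : Γ} {q : ℕ} (hq : q.Prime)
    (hqV : q.Coprime (Nat.card V)) (ht : ∀ u ∈ U, t • u ∈ U) (hy : ∀ u ∈ U, y • u ∈ U)
    (htq : ∀ u ∈ U, t ^ q • u = u) (hyq : ∀ u ∈ U, y ^ q • u = u)
    (hty : ∀ u ∈ U, (t * y) • u = (y * t) • u) {u : V} (hu : u ∈ U) (hyu : y • u ≠ u) :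
    ∃ j : ℕ, ∃ v ∈ U, (t * y ^ j) • v = v ∧ y • v ≠ v := by
  by_contra hcon
  push Not at hcon
  haveI : Fact q.Prime := ⟨hq⟩
  let e : ∀ g : Γ, (∀ u ∈ U, g • u ∈ U) → Monoid.End (Multiplicative U) := fun g hg =>
    AddMonoidHom.toMultiplicative
      (((DistribSMul.toAddMonoidHom V g).comp U.subtype).codRestrict U (fun u => hg u u.2))
  have he : ∀ (g : Γ) (hg : ∀ u ∈ U, g • u ∈ U) (v : Multiplicative U),
      (((e g hg v).toAdd : U) : V) = g • ((v.toAdd : U) : V) := fun _ _ _ => rfl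
  have heq : ∀ a b : Multiplicative U, ((a.toAdd : U) : V) = ((b.toAdd : U) : V) → a = b := by
    intro a b hab
    exact Multiplicative.toAdd.injective (Subtype.ext hab)
  set X := e t ht with hX
  set Y := e y hy with hY
  have hpow : ∀ (g : Γ) (hg : ∀ u ∈ U, g • u ∈ U) (n : ℕ) (v : Multiplicative U),
      ((((e g hg) ^ n) v).toAdd : V) = g ^ n • ((v.toAdd : U) : V) := by
    intro g hg n v
    induction n with
    | zero => simp
    | succ n ih =>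
      rw [pow_succ', pow_succ', mul_smul, ← ih]
      rfl
  have hX1 : X ^ q = 1 := by
    apply MonoidHom.ext
    intro v
    apply heq
    exact (hpow t ht q v).trans (htq _ v.toAdd.2)
  have hY1 : Y ^ q = 1 := by
    apply MonoidHom.ext
    intro v
    apply heq
    exact (hpow y hy q v).trans (hyq _ v.toAdd.2)
  have hXY : Commute X Y := by
    show X * Y = Y * X
    apply MonoidHom.ext
    intro v
    apply heq
    show t • y • ((v.toAdd : U) : V) = y • t • ((v.toAdd : U) : V)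
    rw [← mul_smul, ← mul_smul]
    exact hty _ v.toAdd.2
  let Z' : Subgroup (Multiplicative U) :=
    { carrier := {v | Y v = v}
      mul_mem' := by
        intro a b ha hb
        show Y (a * b) = a * b
        rw [map_mul, show Y a = a from ha, show Y b = b from hb]
      one_mem' := map_one Y
      inv_mem' := by
        intro a ha
        show Y a⁻¹ = a⁻¹
        rw [map_inv, show Y a = a from ha] }
  have key := Cfsg.Agent.Lib.Coprime.Generation.pow_mem_of_fixed_le (q := q) (V := Multiplicative U)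
    (fun a b => mul_comm a b) X Y hX1 hY1 hXY Z' (fun v hv => hv) (by
      intro j v hv
      have h1 : (t * y ^ j.val) • ((v.toAdd : U) : V) = ((v.toAdd : U) : V) := by
        have h2 : ((((X * Y ^ j.val) v).toAdd : U) : V) = ((v.toAdd : U) : V) := by rw [hv]
        have h3 : ((((X * Y ^ j.val) v).toAdd : U) : V) = t • (y ^ j.val • ((v.toAdd : U) : V)) := by
          show t • (((e y hy ^ j.val) v).toAdd : V) = _
          rw [hpow]
        rw [mul_smul, ← h3, h2]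
      have h3 := hcon j.val _ v.toAdd.2 h1
      exact heq _ _ h3) (Multiplicative.ofAdd ⟨u, hu⟩)
  have h4 : Y ((Multiplicative.ofAdd (⟨u, hu⟩ : U)) ^ q) = (Multiplicative.ofAdd (⟨u, hu⟩ : U)) ^ q := key
  rw [map_pow] at h4
  have h5 : q • (y • u) = q • u := by
    have h6 := congrArg (fun a : Multiplicative U => ((a.toAdd : U) : V)) h4
    have h8 : ((Y (Multiplicative.ofAdd (⟨u, hu⟩ : U))).toAdd : V) = y • u := rfl
    simpa [h8] using h6
  apply hyu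
  have h7 : q • (y • u - u) = 0 := by
    rw [smul_sub, h5, sub_self]
  exact sub_eq_zero.mp (nsmul_cancel hqV h7)

/-- A hyperplane of the section, good for the action. -/
structure Hyp (Z L : Subgroup Γ) (W : AddSubgroup V) : Prop where
  le : L ≤ Z
  ker : ∀ x ∈ Z, (∀ w ∈ W, x • w = w) → x ∈ L
  ne : L ≠ Z
  max : ∀ M : Subgroup Γ, L ≤ M → M ≤ Z → M ≠ L → M = Z
  good : ∃ u ∈ W, (∀ l ∈ L, l • u = u) ∧ ∃ x ∈ Z, x • u ≠ u

/-- The data. -/
structure Data (p q : ℕ) (A Z S : Subgroup Γ) (W : AddSubgroup V) : Prop where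
  base : Base p A W
  invZ : Inv p A Z
  invS : Inv p A S
  SZ : ∀ g ∈ S, ∀ x ∈ Z, g * x * g⁻¹ ∈ Z
  WZ : ∀ x ∈ Z, ∀ w ∈ W, x • w ∈ W
  WS : ∀ g ∈ S, ∀ w ∈ W, g • w ∈ W
  ZV : (Nat.card Z).Coprime (Nat.card V)
  qprime : q.Prime
  qV : q.Coprime (Nat.card V)
  Zab : ∀ x ∈ Z, ∀ y ∈ Z, ∀ w ∈ W, (x * y) • w = (y * x) • w
  Zq : ∀ x ∈ Z, ∀ w ∈ W, x ^ q • w = w
  thomp : ∀ c ∈ A, c ≠ 1 → ∀ x ∈ Z, c * x = x * c → ∀ k ∈ S, c * k = k * c →
    ∀ w ∈ W, (k * x * k⁻¹) • w = x • w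

namespace Data

variable {p q : ℕ} {A Z S : Subgroup Γ} {W : AddSubgroup V} (h : Data p q A Z S W)
include h

theorem conj_smul {x l : Γ} {w : V} (hx : x ∈ Z) (hl : l ∈ Z) (hw : w ∈ W) :
    (x * l * x⁻¹) • w = l • w := by
  have h1 := h.Zab x hx l hl (x⁻¹ • w) (h.WZ _ (Z.inv_mem hx) _ hw)
  have h2 : (x * l * x⁻¹) • w = (x * l) • (x⁻¹ • w) := by rw [mul_smul]
  rw [h2, h1, mul_smul, smul_inv_smul]

theorem normal_L {L : Subgroup Γ} (hL : Hyp Z L W) {x l : Γ} (hx : x ∈ Z) (hl : l ∈ L) :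
    x * l * x⁻¹ ∈ L := by
  have hlZ := hL.le hl
  have h1 : x * l * x⁻¹ * l⁻¹ ∈ L := by
    apply hL.ker _ (Z.mul_mem (Z.mul_mem (Z.mul_mem hx hlZ) (Z.inv_mem hx)) (Z.inv_mem hlZ))
    intro w hw
    rw [mul_smul, h.conj_smul hx hlZ (h.WZ _ (Z.inv_mem hlZ) _ hw), smul_inv_smul]
  have h2 := L.mul_mem h1 hl
  simpa using h2

/-- The fixed points of `L` are stable under `Z`. -/
theorem fixed_stable {L : Subgroup Γ} (hL : L ≤ Z) {x l : Γ} {u : V} (hx : x ∈ Z) (hl : l ∈ L)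
    (hu : u ∈ W) (hfix : ∀ l ∈ L, l • u = u) : l • x • u = x • u := by
  rw [← mul_smul, h.Zab l (hL hl) x hx u hu, mul_smul, hfix l hl]

/-- Purity: a good hyperplane contains some `[Z, c]`. -/
theorem purity {L : Subgroup Γ} (hL : Hyp Z L W) :
    ∃ c ∈ A, c ≠ 1 ∧ ∀ x ∈ Z, x⁻¹ * (c * x * c⁻¹) ∈ L := by
  by_contra hno
  push Not at hno
  have hE := h.base.E
  have hLn : ∀ x ∈ Z, ∀ l ∈ L, x * l * x⁻¹ ∈ L := fun x hx l hl => h.normal_L hL hx hl
  have hP : ∀ c₀ ∈ A, c₀ ≠ 1 → ∃ d ∈ A, d ∉ Subgroup.zpowers c₀ ∧ ∃ t ∈ Z, d * t = t * d ∧ t ∉ L := by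
    intro c₀ hc₀ hc₀1
    by_contra hcon
    push Not at hcon
    obtain ⟨x, hx, hxn⟩ := hno c₀ hc₀ hc₀1
    let Y : Subgroup Γ :=
      { carrier := {x | x ∈ Z ∧ x⁻¹ * (c₀ * x * c₀⁻¹) ∈ L}
        mul_mem' := by
          rintro x y ⟨hx1, hx2⟩ ⟨hy1, hy2⟩
          refine ⟨Z.mul_mem hx1 hy1, ?_⟩
          have e : (x * y)⁻¹ * (c₀ * (x * y) * c₀⁻¹) =
              (y⁻¹ * (x⁻¹ * (c₀ * x * c₀⁻¹)) * y⁻¹⁻¹) * (y⁻¹ * (c₀ * y * c₀⁻¹)) := by group
          rw [e]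
          exact L.mul_mem (hLn _ (Z.inv_mem hy1) _ hx2) hy2
        one_mem' := ⟨Z.one_mem, by simpa using L.one_mem⟩
        inv_mem' := by
          rintro x ⟨hx1, hx2⟩
          refine ⟨Z.inv_mem hx1, ?_⟩
          have e : x⁻¹⁻¹ * (c₀ * x⁻¹ * c₀⁻¹) = x * (x⁻¹ * (c₀ * x * c₀⁻¹))⁻¹ * x⁻¹ := by group
          rw [e]
          exact hLn _ hx1 _ (L.inv_mem hx2) }
    have hY : Y = Z := h.invZ.gen hE (fun x hx => hx.1) (by
      intro e he he1 x hx
      obtain ⟨hx1, hx2⟩ := mem_cen.mp hx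
      refine ⟨hx1, ?_⟩
      by_cases hec : e ∈ Subgroup.zpowers c₀
      · have h3 : c₀ ∈ Subgroup.zpowers e := mem_zpowers_symm hE.prime (hE.pow c₀ hc₀) hec he1
        have hc : c₀ * x = x * c₀ := cen_eq_of_mem h3 hx2
        rw [hc]
        simpa using L.one_mem
      · have h1 := hcon e he hec x hx1 hx2
        obtain ⟨h4, h5⟩ := mem_cen.mp (h.invZ.conj_cen hE hc₀ he hx)
        have h2 := hcon e he hec _ h4 h5
        exact L.mul_mem (L.inv_mem h1) h2)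
    have hxY : x ∈ Y := by rw [hY]; exact hx
    exact hxn hxY.2
  obtain ⟨c₀, hc₀, hc₀1⟩ := hE.exists_ne_one
  obtain ⟨c, hc, hcc₀, t₁, ht₁, ht₁c, ht₁L⟩ := hP c₀ hc₀ hc₀1
  have hc1 : c ≠ 1 := IsE.ne_one_of_notMem hE hcc₀
  obtain ⟨d, hd, hdc, t₂, ht₂, ht₂d, ht₂L⟩ := hP c hc hc1
  have hd1 : d ≠ 1 := IsE.ne_one_of_notMem hE hdc
  obtain ⟨u₀, hu₀, hu₀L, x₀, hx₀, hx₀u⟩ := hL.good
  -- fixed vectors `Fix`
  let Fix : AddSubgroup V :=
    { carrier := {v | v ∈ W ∧ (∀ l ∈ L, l • v = v) ∧ ∀ z ∈ Z, d * z = z * d → z • v = v}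
      add_mem' := by
        rintro a b ⟨h1, h2, h3⟩ ⟨k1, k2, k3⟩
        refine ⟨W.add_mem h1 k1, fun l hl => ?_, fun z hz hzd => ?_⟩
        · rw [smul_add, h2 l hl, k2 l hl]
        · rw [smul_add, h3 z hz hzd, k3 z hz hzd]
      zero_mem' := ⟨W.zero_mem, fun l _ => smul_zero _, fun z _ _ => smul_zero _⟩
      neg_mem' := by
        rintro a ⟨h1, h2, h3⟩
        refine ⟨W.neg_mem h1, fun l hl => ?_, fun z hz hzd => ?_⟩
        · rw [smul_neg, h2 l hl]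
        · rw [smul_neg, h3 z hz hzd] }
  have hFixStable : ∀ x ∈ Z, ∀ v ∈ Fix, x • v ∈ Fix := by
    rintro x hx v ⟨h1, h2, h3⟩
    refine ⟨h.WZ x hx v h1, fun l hl => ?_, fun z hz hzd => ?_⟩
    · rw [← mul_smul, h.Zab l (hL.le hl) x hx v h1, mul_smul, h2 l hl]
    · rw [← mul_smul, h.Zab z hz x hx v h1, mul_smul, h3 z hz hzd]
  -- the subgroup `G₁`
  let G₁ : Subgroup Γ :=
    { carrier := {x | x ∈ Z ∧ ∀ u ∈ W, (∀ l ∈ L, l • u = u) → x • u - u ∈ Fix}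
      mul_mem' := by
        rintro x y ⟨hx1, hx2⟩ ⟨hy1, hy2⟩
        refine ⟨Z.mul_mem hx1 hy1, fun u hu huL => ?_⟩
        have e : (x * y) • u - u = x • (y • u - u) + (x • u - u) := by
          rw [smul_sub, mul_smul]; abel
        rw [e]
        exact Fix.add_mem (hFixStable x hx1 _ (hy2 u hu huL)) (hx2 u hu huL)
      one_mem' := ⟨Z.one_mem, fun u _ _ => by simp⟩
      inv_mem' := by
        rintro x ⟨hx1, hx2⟩
        refine ⟨Z.inv_mem hx1, fun u hu huL => ?_⟩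
        have hu1 : x⁻¹ • u ∈ W := h.WZ _ (Z.inv_mem hx1) u hu
        have h2 := hx2 _ hu1 (fun l hl => h.fixed_stable hL.le (Z.inv_mem hx1) hl hu huL)
        have e : x⁻¹ • u - u = -(x • (x⁻¹ • u) - x⁻¹ • u) := by
          rw [smul_inv_smul]; abel
        rw [e]
        exact Fix.neg_mem h2 }
  have hG₁ : G₁ = Z := by
    apply hL.max G₁
    · intro l hl
      refine ⟨hL.le hl, fun u _ huL => ?_⟩
      rw [huL l hl, sub_self]
      exact Fix.zero_mem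
    · exact fun x hx => hx.1
    · intro he
      have : t₁ ∈ G₁ := by
        refine ⟨ht₁, fun u hu huL => ?_⟩
        refine ⟨W.sub_mem (h.WZ _ ht₁ _ hu) hu, fun l hl => ?_, fun z hz hzd => ?_⟩
        · rw [smul_sub, h.fixed_stable hL.le ht₁ hl hu huL, huL l hl]
        · refine h.base.comm_triv h.invZ h.WZ h.ZV hc hd hc1 hdc ht₁ ht₁c (h.WZ z hz) ?_ ?_ hu
          · intro w hw hdw
            exact h.base.fr h.invZ h.WZ h.ZV hd hd1 hz hzd hw hdw
          · exact fun g hg w hw => h.Zab z hz g hg w hw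
      rw [he] at this
      exact ht₁L this
  apply hx₀u
  have hv : x₀ • u₀ - u₀ ∈ Fix := by
    have : x₀ ∈ G₁ := by rw [hG₁]; exact hx₀
    exact this.2 u₀ hu₀ hu₀L
  -- `v` is fixed by `Z`
  obtain ⟨hv1, hv2, hv3⟩ := hv
  let H₂ : Subgroup Γ := Z ⊓ MulAction.stabilizer Γ (x₀ • u₀ - u₀)
  have hH₂ : H₂ = Z := by
    apply hL.max H₂
    · intro l hl
      exact Subgroup.mem_inf.mpr ⟨hL.le hl, MulAction.mem_stabilizer_iff.mpr (hv2 l hl)⟩
    · exact inf_le_left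
    · intro he
      have : t₂ ∈ H₂ := Subgroup.mem_inf.mpr ⟨ht₂, MulAction.mem_stabilizer_iff.mpr (hv3 t₂ ht₂ ht₂d)⟩
      rw [he] at this
      exact ht₂L this
  have hxfix : x₀ • (x₀ • u₀ - u₀) = x₀ • u₀ - u₀ := by
    have : x₀ ∈ H₂ := by rw [hH₂]; exact hx₀
    exact MulAction.mem_stabilizer_iff.mp (Subgroup.mem_inf.mp this).2
  -- powers
  have hpow : ∀ n : ℕ, x₀ ^ n • u₀ = u₀ + n • (x₀ • u₀ - u₀) := by
    intro n
    induction n with
    | zero => simp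
    | succ n ih =>
      rw [pow_succ', mul_smul, ih, smul_add, smul_comm x₀ n, hxfix, succ_nsmul]
      abel
  have hone : x₀ ^ Nat.card Z = 1 := by
    have := pow_card_eq_one' (x := (⟨x₀, hx₀⟩ : Z))
    exact congrArg Subtype.val this
  have h0 := hpow (Nat.card Z)
  rw [hone, one_smul] at h0
  have h1 : Nat.card Z • (x₀ • u₀ - u₀) = 0 := by
    have := h0
    exact (add_eq_left.mp this.symm)
  have h2 := nsmul_cancel h.ZV h1
  exact sub_eq_zero.mp h2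

/-- Conjugates of a good hyperplane by `S` are good. -/
theorem hyp_conj {L : Subgroup Γ} (hL : Hyp Z L W) {k : Γ} (hk : k ∈ S) :
    Hyp Z (L.map (MulAut.conj k).toMonoidHom) W := by
  have hk' : k⁻¹ ∈ S := S.inv_mem hk
  have hZk : ∀ x ∈ Z, k * x * k⁻¹ ∈ Z := h.SZ k hk
  have hZk' : ∀ x ∈ Z, k⁻¹ * x * k ∈ Z := fun x hx => by simpa using h.SZ k⁻¹ hk' x hx
  have hmem : ∀ x, x ∈ L.map (MulAut.conj k).toMonoidHom ↔ k⁻¹ * x * k ∈ L := by
    intro x
    constructor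
    · rintro ⟨l, hl, rfl⟩
      simpa [mul_assoc] using hl
    · intro hx
      exact ⟨_, hx, by simp [mul_assoc]⟩
  refine ⟨?_, ?_, ?_, ?_, ?_⟩
  · rintro _ ⟨l, hl, rfl⟩
    exact hZk l (hL.le hl)
  · intro x hx hxw
    rw [hmem]
    apply hL.ker _ (hZk' x hx)
    intro w hw
    have h1 := hxw (k • w) (h.WS k hk w hw)
    rw [mul_smul, mul_smul, h1, inv_smul_smul]
  · intro he
    apply hL.ne
    apply le_antisymm hL.le
    intro z hz
    have h1 : k * z * k⁻¹ ∈ L.map (MulAut.conj k).toMonoidHom := by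
      rw [he]; exact hZk z hz
    rw [hmem] at h1
    simpa [mul_assoc] using h1
  · intro M hLM hMZ hne
    let M' : Subgroup Γ := M.map (MulAut.conj k⁻¹).toMonoidHom
    have hmem' : ∀ x, x ∈ M' ↔ k * x * k⁻¹ ∈ M := by
      intro x
      constructor
      · rintro ⟨m, hm, rfl⟩
        simpa [mul_assoc] using hm
      · intro hx
        exact ⟨_, hx, by simp [mul_assoc]⟩
    have hM' : M' = Z := by
      apply hL.max M'
      · intro l hl
        rw [hmem']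
        apply hLM
        rw [hmem]
        simpa [mul_assoc] using hl
      · intro x hx
        rw [hmem'] at hx
        have := hZk' _ (hMZ hx)
        simpa [mul_assoc] using this
      · intro he
        apply hne
        ext x
        rw [hmem, ← he, hmem']
        simp [mul_assoc]
    apply le_antisymm hMZ
    intro z hz
    have h1 : k⁻¹ * z * k ∈ M' := by rw [hM']; exact hZk' z hz
    rw [hmem'] at h1
    simpa [mul_assoc] using h1
  · obtain ⟨u, hu, huL, x, hx, hxu⟩ := hL.good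
    refine ⟨k • u, h.WS k hk u hu, ?_, k * x * k⁻¹, hZk x hx, ?_⟩
    · intro l hl
      rw [hmem] at hl
      have h1 := huL _ hl
      have e : l • k • u = k • ((k⁻¹ * l * k) • u) := by
        rw [← mul_smul, ← mul_smul]; congr 1; group
      rw [e, h1]
    · rw [conj_smul_smul]
      intro he
      exact hxu (smul_left_cancel k he)

/-- `A` cannot act trivially on `Z / L`. -/
theorem not_both {L : Subgroup Γ} (hL : Hyp Z L W) {a b : Γ} (ha : a ∈ A) (hb : b ∈ A) (ha1 : a ≠ 1)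
    (hba : b ∉ Subgroup.zpowers a) (hap : ∀ x ∈ Z, x⁻¹ * (a * x * a⁻¹) ∈ L)
    (hbp : ∀ x ∈ Z, x⁻¹ * (b * x * b⁻¹) ∈ L) : False := by
  have hE := h.base.E
  have hLn : ∀ x ∈ Z, ∀ l ∈ L, x * l * x⁻¹ ∈ L := fun x hx l hl => h.normal_L hL hx hl
  have hconj : ∀ c ∈ A, (∀ x ∈ Z, x⁻¹ * (c * x * c⁻¹) ∈ L) → c ∈ stabT Z L hLn := fun c hc hcp =>
    ⟨h.invZ.conj c hc, fun x hx => by simpa using h.invZ.conj c⁻¹ (A.inv_mem hc) x hx, hcp⟩
  have hAT : A ≤ stabT Z L hLn := hE.le_of_mem ha hb ha1 hba _ (hconj a ha hap) (hconj b hb hbp)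
  apply hL.ne
  apply h.invZ.gen hE hL.le
  intro e he he1 x hx
  obtain ⟨f, hf, hfe⟩ := hE.exists_notMem_zpowers he
  obtain ⟨m, hm, rfl⟩ := tau_surj (cen Z e) (f := f) (fun y hy => h.invZ.conj_cen hE hf he hy)
    (fun y hy hyf => by
      obtain ⟨hy1, hy2⟩ := mem_cen.mp hy
      refine h.invZ.eq_one_of_comm hE he hf he1 hfe hy1 hy2 ?_
      calc f * y = (f * y * f⁻¹) * f := by group
        _ = y * f := by rw [hyf]) hx
  exact (hAT hf).2.2 m (mem_cen.mp hm).1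

/-- `C_S(b)` acts trivially on `Z / L` if `L ≥ [Z, a]`, `b ∉ ⟨a⟩`. -/
theorem stab_of_good {L : Subgroup Γ} (hL : Hyp Z L W) {a b : Γ} (ha : a ∈ A) (hb : b ∈ A) (ha1 : a ≠ 1)
    (hba : b ∉ Subgroup.zpowers a) (hap : ∀ x ∈ Z, x⁻¹ * (a * x * a⁻¹) ∈ L) {k x : Γ} (hk : k ∈ S)
    (hkb : b * k = k * b) (hx : x ∈ Z) : x⁻¹ * (k * x * k⁻¹) ∈ L := by
  have hE := h.base.E
  have hLn : ∀ x ∈ Z, ∀ l ∈ L, x * l * x⁻¹ ∈ L := fun x hx l hl => h.normal_L hL hx hl
  have hconj : ∀ c ∈ A, (∀ x ∈ Z, x⁻¹ * (c * x * c⁻¹) ∈ L) → c ∈ stabT Z L hLn := fun c hc hcp =>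
    ⟨h.invZ.conj c hc, fun x hx => by simpa using h.invZ.conj c⁻¹ (A.inv_mem hc) x hx, hcp⟩
  have hb1 : b ≠ 1 := IsE.ne_one_of_notMem hE hba
  have hab : a ∉ Subgroup.zpowers b := hE.notMem_symm hb ha1 hba
  have hle : cen S b ≤ stabT Z L hLn := by
    refine stab_le hE (cen S b) (stabT Z L hLn) ha hb (hconj a ha hap) ?_ ?_ ?_ ?_ ?_
    · intro hbT
      exact h.not_both hL ha hb ha1 hba hap hbT.2.2
    · intro k hk
      exact (mem_cen.mp hk).2.symm
    · intro k hk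
      exact h.invS.conj_cen hE ha hb hk
    · intro k hk hka
      obtain ⟨hk1, hk2⟩ := mem_cen.mp hk
      refine h.invS.eq_one_of_comm hE hb ha hb1 hab hk1 hk2 ?_
      calc a * k = (a * k * a⁻¹) * a := by group
        _ = k * a := by rw [hka]
    · intro k hk
      obtain ⟨hk1, hk2⟩ := mem_cen.mp hk
      have hL' := h.hyp_conj hL hk1
      obtain ⟨c, hc, hc1, hcp⟩ := h.purity hL'
      refine ⟨c, hc, hc1, ?_⟩
      have hk1' : k⁻¹ ∈ S := S.inv_mem hk1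
      refine ⟨fun x hx => ?_, fun x hx => ?_, fun x hx => ?_⟩
      · have h1 := h.SZ k⁻¹ hk1' _ (h.invZ.conj c hc _ (h.SZ k hk1 x hx))
        convert h1 using 1
        group
      · have h1 := h.SZ k⁻¹ hk1' _ (h.invZ.conj c⁻¹ (A.inv_mem hc) _ (h.SZ k hk1 x hx))
        convert h1 using 1
        group
      · have h1 := hcp _ (h.SZ k hk1 x hx)
        obtain ⟨l, hl, hle⟩ := h1
        have e : x⁻¹ * (k⁻¹ * c * k * x * (k⁻¹ * c * k)⁻¹) =
            k⁻¹ * ((k * x * k⁻¹)⁻¹ * (c * (k * x * k⁻¹) * c⁻¹)) * k := by group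
        rw [e, ← hle]
        simpa [mul_assoc] using hl
  exact (hle (mem_cen.mpr ⟨hk, hkb⟩)).2.2 x hx

/-- Enough good hyperplanes. -/
theorem exists_good {y : Γ} {w₀ : V} (hy : y ∈ Z) (hw₀ : w₀ ∈ W) (hyw : y • w₀ ≠ w₀) :
    ∃ L : Subgroup Γ, Hyp Z L W ∧ y ∉ L := by
  classical
  let F : Set (Subgroup Γ) := {L | L ≤ Z ∧ ∃ u ∈ W, (∀ l ∈ L, l • u = u) ∧ y • u ≠ u}
  have hF : F.Finite := Set.toFinite F
  have hne : F.Nonempty := ⟨⊥, bot_le, w₀, hw₀, fun l hl => by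
    rw [Subgroup.mem_bot.mp hl, one_smul], hyw⟩
  obtain ⟨L, hLmax⟩ := hF.exists_maximal hne
  obtain ⟨hLZ, u, hu, huL, hyu⟩ := hLmax.prop
  have hLmax' : ∀ M, M ∈ F → L ≤ M → M ≤ L := fun M hM hle => hLmax.le_of_ge hM hle
  have hZv : ∀ v ∈ W, (∀ l ∈ L, l • v = v) → y • v ≠ v → ∀ t ∈ Z, t • v = v → t ∈ L := by
    intro v hv hvL hyv t ht htv
    let M : Subgroup Γ := Z ⊓ MulAction.stabilizer Γ v
    have hM : M ∈ F := ⟨inf_le_left, v, hv, fun l hl =>
      MulAction.mem_stabilizer_iff.mp (Subgroup.mem_inf.mp hl).2, hyv⟩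
    have hLM : L ≤ M := fun l hl =>
      Subgroup.mem_inf.mpr ⟨hLZ hl, MulAction.mem_stabilizer_iff.mpr (hvL l hl)⟩
    exact hLmax' M hM hLM (Subgroup.mem_inf.mpr ⟨ht, MulAction.mem_stabilizer_iff.mpr htv⟩)
  have hker : ∀ x ∈ Z, (∀ w ∈ W, x • w = w) → x ∈ L :=
    fun x hx hxw => hZv u hu huL hyu x hx (hxw u hu)
  have hyL : y ∉ L := fun hl => hyu (huL y hl)
  have hqL : ∀ x ∈ Z, x ^ q ∈ L := fun x hx => hker _ (Z.pow_mem hx q) (h.Zq x hx)
  have hA : ∀ t ∈ Z, ∃ l ∈ L, ∃ n : ℤ, t = l * y ^ n := by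
    intro t ht
    by_contra hcon
    push Not at hcon
    let U : AddSubgroup V :=
      { carrier := {v | v ∈ W ∧ ∀ l ∈ L, l • v = v}
        add_mem' := by
          rintro a b ⟨h1, h2⟩ ⟨k1, k2⟩
          exact ⟨W.add_mem h1 k1, fun l hl => by rw [smul_add, h2 l hl, k2 l hl]⟩
        zero_mem' := ⟨W.zero_mem, fun l _ => smul_zero _⟩
        neg_mem' := by
          rintro a ⟨h1, h2⟩
          exact ⟨W.neg_mem h1, fun l hl => by rw [smul_neg, h2 l hl]⟩ }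
    have hUZ : ∀ x ∈ Z, ∀ v ∈ U, x • v ∈ U := by
      rintro x hx v ⟨h1, h2⟩
      exact ⟨h.WZ x hx v h1, fun l hl => h.fixed_stable hLZ hx hl h1 h2⟩
    obtain ⟨j, v, ⟨hv1, hv2⟩, hv3, hv4⟩ := exists_fixed_of_pair U h.qprime h.qV (hUZ t ht) (hUZ y hy)
      (fun u hu => h.Zq t ht u hu.1) (fun u hu => h.Zq y hy u hu.1)
      (fun u hu => h.Zab t ht y hy u hu.1) (⟨hu, huL⟩ : u ∈ U) hyu
    have h1 := hZv v hv1 hv2 hv4 _ (Z.mul_mem ht (Z.pow_mem hy j)) hv3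
    apply hcon _ h1 (-(j : ℤ))
    simp
  refine ⟨L, ⟨hLZ, hker, ?_, ?_, u, hu, huL, y, hy, hyu⟩, hyL⟩
  · intro he
    rw [he] at hyL
    exact hyL hy
  · intro M hLM hMZ hne
    -- some element of `M` outside `L`
    obtain ⟨t, htM, htL⟩ : ∃ t ∈ M, t ∉ L := by
      by_contra hcon
      push Not at hcon
      exact hne (le_antisymm hcon hLM)
    obtain ⟨l, hl, n, hn⟩ := hA t (hMZ htM)
    have hyn : y ^ n ∈ M := by
      have : y ^ n = l⁻¹ * t := by rw [hn]; group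
      rw [this]
      exact M.mul_mem (M.inv_mem (hLM hl)) htM
    have hqn : ¬ (q : ℤ) ∣ n := by
      rintro ⟨m, rfl⟩
      apply htL
      rw [hn, zpow_mul]
      exact L.mul_mem hl (L.zpow_mem (by exact_mod_cast hqL y hy) m)
    have hcop : IsCoprime n (q : ℤ) := by
      have hq' := Nat.prime_iff_prime_int.mp h.qprime
      exact ((Prime.coprime_iff_not_dvd hq').mpr hqn).symm
    obtain ⟨a, b, hab⟩ := hcop
    have hyM : y ∈ M := by
      have e : y = (y ^ n) ^ a * (y ^ (q : ℤ)) ^ b := by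
        rw [← zpow_mul, ← zpow_mul, ← zpow_add, mul_comm n a, mul_comm (q : ℤ) b, hab, zpow_one]
      rw [e]
      exact M.mul_mem (M.zpow_mem hyn a) (M.zpow_mem (hLM (by exact_mod_cast hqL y hy)) b)
    apply le_antisymm hMZ
    intro z hz
    obtain ⟨l', hl', n', hn'⟩ := hA z hz
    rw [hn']
    exact M.mul_mem (hLM hl') (M.zpow_mem hyM n')

/-- **Main theorem of this section.** -/
theorem main {g x : Γ} {w : V} (hg : g ∈ S) (hx : x ∈ Z) (hw : w ∈ W) :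
    (g * x * g⁻¹) • w = x • w := by
  have hE := h.base.E
  have sub1 : ∀ b ∈ A, b ≠ 1 → ∀ k ∈ S, b * k = k * b → ∀ c ∈ A, c ≠ 1 → c ∉ Subgroup.zpowers b →
      ∀ x ∈ Z, c * x = x * c → ∀ w ∈ W, (k * x * k⁻¹) • w = x • w := by
    intro b hb hb1 k hk hkb c hc hc1 hcb x hx hxc w hw
    by_contra hne
    have hkx : k * x * k⁻¹ ∈ Z := h.SZ k hk x hx
    have hy₀ : x⁻¹ * (k * x * k⁻¹) ∈ Z := Z.mul_mem (Z.inv_mem hx) hkx
    have hyw : (x⁻¹ * (k * x * k⁻¹)) • w ≠ w := by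
      intro he
      apply hne
      rw [mul_smul] at he
      calc (k * x * k⁻¹) • w = x • x⁻¹ • (k * x * k⁻¹) • w := by rw [smul_inv_smul]
        _ = x • w := by rw [he]
    obtain ⟨L, hL, hyL⟩ := h.exists_good hy₀ hw hyw
    obtain ⟨a, ha, ha1, hap⟩ := h.purity hL
    by_cases hba : b ∈ Subgroup.zpowers a
    · -- `b` acts trivially on `Z / L`
      have hLn : ∀ x ∈ Z, ∀ l ∈ L, x * l * x⁻¹ ∈ L := fun x hx l hl => h.normal_L hL hx hl
      have haT : a ∈ stabT Z L hLn :=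
        ⟨h.invZ.conj a ha, fun x hx => by simpa using h.invZ.conj a⁻¹ (A.inv_mem ha) x hx, hap⟩
      have hbT : b ∈ stabT Z L hLn := by
        have : Subgroup.zpowers a ≤ stabT Z L hLn := by
          rw [Subgroup.zpowers_le]; exact haT
        exact this hba
      have hbc : b ∉ Subgroup.zpowers c := hE.notMem_symm hc hb1 hcb
      obtain ⟨m, hm, rfl⟩ := tau_surj (cen Z c) (f := b) (fun y hy => h.invZ.conj_cen hE hb hc hy)
        (fun y hy hyf => by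
          obtain ⟨hy1, hy2⟩ := mem_cen.mp hy
          refine h.invZ.eq_one_of_comm hE hc hb hc1 hbc hy1 hy2 ?_
          calc b * y = (b * y * b⁻¹) * b := by group
            _ = y * b := by rw [hyf]) (mem_cen.mpr ⟨hx, hxc⟩)
      apply hyL
      have hmZ := (mem_cen.mp hm).1
      refine L.mul_mem (L.inv_mem (hbT.2.2 m hmZ)) ?_
      have hkm := h.SZ k hk m hmZ
      have h3 := hbT.2.2 _ hkm
      have e : k * (m⁻¹ * (b * m * b⁻¹)) * k⁻¹ =
          (k * m * k⁻¹)⁻¹ * (b * (k * m * k⁻¹) * b⁻¹) := by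
        have h4 : b * k = k * b := hkb
        have h5 : k⁻¹ * b⁻¹ = b⁻¹ * k⁻¹ := by
          have : (b * k)⁻¹ = (k * b)⁻¹ := by rw [h4]
          simpa using this
        calc k * (m⁻¹ * (b * m * b⁻¹)) * k⁻¹ = k * m⁻¹ * k⁻¹ * ((k * b) * m * (b⁻¹ * k⁻¹)) := by group
          _ = k * m⁻¹ * k⁻¹ * ((b * k) * m * (k⁻¹ * b⁻¹)) := by rw [h4, h5]
          _ = (k * m * k⁻¹)⁻¹ * (b * (k * m * k⁻¹) * b⁻¹) := by group
      rw [e]
      exact h3
    · exact hyL (h.stab_of_good hL ha hb ha1 hba hap hk hkb hx)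
  -- `C_S(b)` centralizes `Z` on `W`
  have sub2 : ∀ b ∈ A, b ≠ 1 → ∀ k ∈ S, b * k = k * b → ∀ x ∈ Z, ∀ w ∈ W,
      (k * x * k⁻¹) • w = x • w := by
    intro b hb hb1 k hk hkb
    let Y : Subgroup Γ :=
      { carrier := {x | x ∈ Z ∧ ∀ w ∈ W, (k * x * k⁻¹) • w = x • w}
        mul_mem' := by
          rintro x y ⟨hx1, hx2⟩ ⟨hy1, hy2⟩
          refine ⟨Z.mul_mem hx1 hy1, fun w hw => ?_⟩
          have e : k * (x * y) * k⁻¹ = (k * x * k⁻¹) * (k * y * k⁻¹) := by group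
          rw [e, mul_smul, hy2 w hw, hx2 _ (h.WZ y hy1 w hw), mul_smul]
        one_mem' := ⟨Z.one_mem, fun w _ => by simp⟩
        inv_mem' := by
          rintro x ⟨hx1, hx2⟩
          refine ⟨Z.inv_mem hx1, fun w hw => ?_⟩
          have h1 := hx2 _ (h.WZ _ (Z.inv_mem hx1) w hw)
          rw [smul_inv_smul] at h1
          have e : k * x⁻¹ * k⁻¹ = (k * x * k⁻¹)⁻¹ := by group
          rw [e, inv_smul_eq_iff]
          exact h1.symm }
    have hY : Y = Z := h.invZ.gen hE (fun x hx => hx.1) (by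
      intro e he he1 x hx
      obtain ⟨hx1, hx2⟩ := mem_cen.mp hx
      refine ⟨hx1, fun w hw => ?_⟩
      by_cases heb : e ∈ Subgroup.zpowers b
      · have h3 : b ∈ Subgroup.zpowers e := mem_zpowers_symm hE.prime (hE.pow b hb) heb he1
        exact h.thomp b hb hb1 x hx1 (cen_eq_of_mem h3 hx2) k hk hkb w hw
      · exact sub1 b hb hb1 k hk hkb e he he1 heb x hx1 hx2 w hw)
    intro x hx
    have : x ∈ Y := by rw [hY]; exact hx
    exact this.2
  let Y : Subgroup Γ :=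
    { carrier := {g | g ∈ S ∧ ∀ x ∈ Z, ∀ w ∈ W, (g * x * g⁻¹) • w = x • w}
      mul_mem' := by
        rintro g g' ⟨hg1, hg2⟩ ⟨hg1', hg2'⟩
        refine ⟨S.mul_mem hg1 hg1', fun x hx w hw => ?_⟩
        have e : g * g' * x * (g * g')⁻¹ = g * (g' * x * g'⁻¹) * g⁻¹ := by group
        rw [e, hg2 _ (h.SZ g' hg1' x hx) w hw, hg2' x hx w hw]
      one_mem' := ⟨S.one_mem, fun x _ w _ => by simp⟩
      inv_mem' := by
        rintro g ⟨hg1, hg2⟩
        refine ⟨S.inv_mem hg1, fun x hx w hw => ?_⟩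
        have hx' : g⁻¹ * x * g⁻¹⁻¹ ∈ Z := h.SZ _ (S.inv_mem hg1) x hx
        have h1 := hg2 _ hx' w hw
        have e : g * (g⁻¹ * x * g⁻¹⁻¹) * g⁻¹ = x := by group
        rw [e] at h1
        exact h1.symm }
  have hY : Y = S := h.invS.gen hE (fun x hx => hx.1) (by
    intro e he he1 k hk
    obtain ⟨hk1, hk2⟩ := mem_cen.mp hk
    exact ⟨hk1, fun x hx w hw => sub2 e he he1 k hk1 hk2 x hx w hw⟩)
  have : g ∈ Y := by rw [hY]; exact hg
  exact this.2 x hx w hw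

end Data

end Cfsg.Agent.Lib.Ward.Elem
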