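import Cfsg.Agent.Lib.Ward.Chief

/-!
# Ward's theorem: Fitting height at most two

`G` finite solvable, `A` elementary abelian of order `p²` acting on `G` without nontrivial fixed
points. Then `G` has a nilpotent normal subgroup with nilpotent quotient.
-/

set_option autoImplicit false

namespace Cfsg.Agent.Lib.Ward.Main

open Cfsg Cfsg.Agent.Lib.Core.Basic Cfsg.Agent.Lib.FPFThompson.Main
open Cfsg.Agent.Lib.Ward.Chief
open scoped commutatorElement

universe u v

section Aux

variable {G : Type u} {A : Type v} [Group G] [Finite G] [Group A] [Finite A]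

/-- The action of `A` on a quotient. -/
noncomputable def quotHom (α : A →* MulAut G) (N : Subgroup G) [N.Normal]
    (hN : ∀ a, ∀ x ∈ N, α a x ∈ N) : A →* MulAut (G ⧸ N) where
  toFun a := quotEquiv (α a) N (hN a)
  map_one' := by
    ext x
    induction x using QuotientGroup.induction_on with
    | H x =>
      rw [quotEquiv_mk, map_one]
      rfl
  map_mul' a b := by
    ext x
    induction x using QuotientGroup.induction_on with
    | H x =>
      rw [quotEquiv_mk, map_mul]
      rfl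

@[simp] theorem quotHom_mk (α : A →* MulAut G) (N : Subgroup G) [N.Normal]
    (hN : ∀ a, ∀ x ∈ N, α a x ∈ N) (a : A) (x : G) :
    quotHom α N hN a (x : G ⧸ N) = ((α a x : G) : G ⧸ N) := rfl

/-- A fixed coset of a `p'`-subgroup under a `p`-group has a fixed point. -/
theorem coset_fixed {p : ℕ} [hp : Fact p.Prime] (hA : IsPGroup p A) (α : A →* MulAut G)
    (N : Subgroup G) (hN : ∀ a, ∀ x ∈ N, α a x ∈ N) (hNp : p.Coprime (Nat.card N))
    (hfix : ∀ x, (∀ a, α a x = x) → x = 1) {g : G} (hg : ∀ a, g⁻¹ * α a g ∈ N) : g ∈ N := by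
  classical
  let T := {x : G // g⁻¹ * x ∈ N}
  have hmem : ∀ (a : A) (x : T), g⁻¹ * α a x.1 ∈ N := by
    intro a x
    have e : g⁻¹ * α a x.1 = (g⁻¹ * α a g) * α a (g⁻¹ * x.1) := by
      simp [mul_assoc]
    rw [e]
    exact N.mul_mem (hg a) (hN a _ x.2)
  letI : MulAction A T :=
    { smul := fun a x => ⟨α a x.1, hmem a x⟩
      one_smul := fun x => by
        apply Subtype.ext
        show α 1 x.1 = x.1
        rw [map_one]; rfl
      mul_smul := fun a b x => by
        apply Subtype.ext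
        show α (a * b) x.1 = α a (α b x.1)
        rw [map_mul]; rfl }
  have h1 := hA.card_modEq_card_fixedPoints T
  have hT : Nat.card T = Nat.card N := by
    apply Nat.card_congr
    exact { toFun := fun x => ⟨g⁻¹ * x.1, x.2⟩
            invFun := fun n => ⟨g * n.1, by simpa using n.2⟩
            left_inv := fun x => by apply Subtype.ext; simp
            right_inv := fun n => by apply Subtype.ext; simp }
  have hne : (MulAction.fixedPoints A T).Nonempty := by
    by_contra hemp
    rw [Set.not_nonempty_iff_eq_empty] at hemp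
    rw [hemp, hT] at h1
    have h3 : Nat.card N ≡ 0 [MOD p] := by simpa using h1
    have h2 : p ∣ Nat.card N := (Nat.modEq_zero_iff_dvd).mp h3
    have h7 := Nat.dvd_gcd (dvd_refl p) h2
    rw [Nat.Coprime] at hNp
    rw [hNp] at h7
    exact hp.out.one_lt.ne' (Nat.dvd_one.mp h7)
  obtain ⟨x, hx⟩ := hne
  have hx1 : x.1 = 1 := hfix _ fun a => congrArg Subtype.val (hx a)
  have h2 := x.2
  rw [hx1, mul_one] at h2
  simpa using N.inv_mem h2

/-- `|G|` is prime to `p`. -/
theorem coprime_of_fix {p : ℕ} [hp : Fact p.Prime] (hA : IsPGroup p A) (α : A →* MulAut G)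
    (hfix : ∀ x, (∀ a, α a x = x) → x = 1) : p.Coprime (Nat.card G) := by
  classical
  letI : MulAction A G := MulAction.compHom G α
  have h1 := hA.card_modEq_card_fixedPoints G
  have hf : MulAction.fixedPoints A G = {1} := by
    ext x
    constructor
    · intro hx
      exact hfix x fun a => hx a
    · rintro rfl a
      exact map_one (α a)
  rw [hf, Nat.card_coe_set_eq, Set.ncard_singleton] at h1
  rw [Nat.Prime.coprime_iff_not_dvd hp.out]
  intro hd
  have h3 : Nat.card G ≡ 0 [MOD p] := (Nat.modEq_zero_iff_dvd).mpr hd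
  have h4 : 0 ≡ 1 [MOD p] := h3.symm.trans h1
  have h5 := (Nat.modEq_zero_iff_dvd).mp h4.symm
  exact hp.out.one_lt.ne' (Nat.dvd_one.mp h5)

end Aux

/-- **Ward's theorem**, abstract form. -/
theorem main_ind {A : Type v} [Group A] [Finite A] {p : ℕ} (hp : p.Prime) (hAc : ∀ a b : A, a * b = b * a)
    (hAp : ∀ a : A, a ^ p = 1) (hAcard : Nat.card A = p ^ 2) :
    ∀ (n : ℕ) (G : Type u) [Group G] [Finite G], Nat.card G = n → Group.IsSolvable G →
      ∀ α : A →* MulAut G, (∀ x, (∀ a, α a x = x) → x = 1) →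
      ∃ N : Subgroup G, N.Normal ∧ Group.IsNilpotent N ∧
        ∃ k, (⊤ : Subgroup G).lowerCentralSeries k ≤ N := by
  intro n
  induction n using Nat.strong_induction_on with
  | _ n IH =>
  intro G _ _ hn hsolv α hfix
  haveI : Fact p.Prime := ⟨hp⟩
  have hApg : IsPGroup p A := IsPGroup.of_card (n := 2) hAcard
  have hGp : p.Coprime (Nat.card G) := coprime_of_fix hApg α hfix
  by_cases htriv : Subsingleton G
  · refine ⟨⊤, inferInstance, ?_, 0, le_top⟩
    rw [Subgroup.isNilpotent_iff_lowerCentralSeries]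
    refine ⟨0, ?_⟩
    rw [Subgroup.lowerCentralSeries_zero]
    exact Subsingleton.elim _ _
  rw [not_subsingleton_iff_nontrivial] at htriv
  let F : Set (Subgroup G) := {V | V ≠ ⊥ ∧ V.Normal ∧ ∀ a, ∀ x ∈ V, α a x ∈ V}
  have hF : F.Nonempty := ⟨⊤, top_ne_bot, inferInstance, fun _ _ _ => trivial⟩
  obtain ⟨V₀, hV₀⟩ := (Set.toFinite F).exists_minimal hF
  obtain ⟨hV₀1, hV₀n, hV₀α⟩ := hV₀.prop
  haveI := hV₀n
  have hmin : ∀ U : Subgroup G, U ≠ ⊥ → U.Normal → (∀ a, ∀ x ∈ U, α a x ∈ U) → U ≤ V₀ → U = V₀ :=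
    fun U h1 h2 h3 h4 => le_antisymm h4 (hV₀.le_of_le ⟨h1, h2, h3⟩ h4)
  have hcommV : ⁅V₀, V₀⁆ = ⊥ := by
    by_contra hne
    have hlt := Group.IsSolvable.commutator_lt_of_ne_bot hV₀1
    have hinv : ∀ a, ∀ x ∈ ⁅V₀, V₀⁆, α a x ∈ ⁅V₀, V₀⁆ := by
      intro a x hx
      have h1 : V₀.map (α a).toMonoidHom ≤ V₀ := by
        rintro _ ⟨v, hv, rfl⟩
        exact hV₀α a v hv
      have h2 : (⁅V₀, V₀⁆ : Subgroup G).map (α a).toMonoidHom ≤ ⁅V₀, V₀⁆ := by
        rw [Subgroup.map_commutator]
        exact Subgroup.commutator_mono h1 h1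
      exact h2 ⟨x, hx, rfl⟩
    exact hlt.ne (hmin _ hne inferInstance hinv hlt.le)
  have hMcomm : ∀ a b : V₀, a * b = b * a := by
    intro a b
    apply Subtype.ext
    have h1 : ⁅(a : G), (b : G)⁆ ∈ ⁅V₀, V₀⁆ := Subgroup.commutator_mem_commutator a.2 b.2
    rw [hcommV, Subgroup.mem_bot, commutatorElement_eq_one_iff_mul_comm] at h1
    exact h1
  -- the characteristic
  have hcardV : Nat.card V₀ ≠ 1 := by
    intro h1
    exact hV₀1 (Subgroup.eq_bot_of_card_eq V₀ h1)
  obtain ⟨r, hr, hrd⟩ := Nat.exists_prime_and_dvd hcardV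
  haveI : Fact r.Prime := ⟨hr⟩
  let V₁ : Subgroup G :=
    { carrier := {x | x ∈ V₀ ∧ x ^ r = 1}
      mul_mem' := by
        rintro a b ⟨h1, h2⟩ ⟨k1, k2⟩
        refine ⟨V₀.mul_mem h1 k1, ?_⟩
        have hc : Commute a b := congrArg Subtype.val (hMcomm ⟨a, h1⟩ ⟨b, k1⟩)
        rw [hc.mul_pow, h2, k2, one_mul]
      one_mem' := ⟨V₀.one_mem, one_pow r⟩
      inv_mem' := by
        rintro a ⟨h1, h2⟩
        exact ⟨V₀.inv_mem h1, by rw [inv_pow, h2, inv_one]⟩ }
  have hV₁ : V₁ = V₀ := by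
    apply hmin
    · obtain ⟨y, hy⟩ := exists_prime_orderOf_dvd_card' r hrd
      intro hbot
      have h1 : (y : G) ∈ V₁ := by
        refine ⟨y.2, ?_⟩
        have := pow_orderOf_eq_one y
        rw [hy] at this
        exact congrArg Subtype.val this
      rw [hbot, Subgroup.mem_bot] at h1
      have h2 : y = 1 := Subtype.ext h1
      rw [h2, orderOf_one] at hy
      exact hr.one_lt.ne hy
    · constructor
      rintro x ⟨h1, h2⟩ g
      refine ⟨hV₀n.conj_mem x h1 g, ?_⟩
      rw [conj_pow, h2, mul_one, mul_inv_cancel]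
    · rintro a x ⟨h1, h2⟩
      refine ⟨hV₀α a x h1, ?_⟩
      rw [← map_pow, h2, map_one]
    · exact fun x hx => hx.1
  have hVr : ∃ k, Nat.card V₀ = r ^ k := by
    apply IsPGroup.iff_card.mp
    intro g
    refine ⟨1, ?_⟩
    apply Subtype.ext
    have h1 : (g : G) ∈ V₁ := by rw [hV₁]; exact g.2
    simpa using h1.2
  -- the module
  let ρ₀ : G →* MulAut V₀ := MulAut.conjNormal
  have hρ₀ : ∀ (g : G) (v : V₀), ((ρ₀ g v : V₀) : G) = g * v * g⁻¹ := fun g v => MulAut.conjNormal_apply g v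
  let C : Subgroup G := ρ₀.ker
  have hCmem : ∀ x, x ∈ C ↔ ∀ v : V₀, x * v * x⁻¹ = v := by
    intro x
    constructor
    · intro hx v
      have h1 : ρ₀ x = 1 := hx
      rw [← hρ₀, h1]
      rfl
    · intro hx
      show ρ₀ x = 1
      ext v
      rw [hρ₀, hx v]
      rfl
  have hCα : ∀ a, ∀ x ∈ C, α a x ∈ C := by
    intro a x hx
    rw [hCmem] at hx ⊢
    intro v
    have h1 : α a⁻¹ v ∈ V₀ := hV₀α a⁻¹ v v.2
    have h2 := hx ⟨_, h1⟩
    have h3 := congrArg (α a) h2
    simp only [map_mul, map_inv] at h3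
    rw [MulAut.apply_inv_self] at h3
    exact h3
  have hCcop : p.Coprime (Nat.card C) :=
    Nat.Coprime.coprime_dvd_right (Subgroup.card_subgroup_dvd_card C) hGp
  let X := G ⧸ C
  let ρ : X →* MulAut V₀ := QuotientGroup.kerLift ρ₀
  let αX : A →* MulAut X := quotHom α C hCα
  let σ : A →* MulAut V₀ :=
    { toFun := fun a => restrictEquiv (α a) V₀ (hV₀α a)
      map_one' := by
        ext v
        show α 1 (v : G) = v
        rw [map_one]; rfl
      map_mul' := fun a b => by
        ext v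
        show α (a * b) (v : G) = α a (α b (v : G))
        rw [map_mul]; rfl }
  have hσ : ∀ a (v : V₀), ((σ a v : V₀) : G) = α a v := fun _ _ => rfl
  have hρ : ∀ (g : G) (v : V₀), ((ρ (g : X) v : V₀) : G) = g * v * g⁻¹ := fun g v => hρ₀ g v
  have compat : ∀ a x v, σ a (ρ x v) = ρ (αX a x) (σ a v) := by
    intro a x v
    induction x using QuotientGroup.induction_on with
    | H g =>
      apply Subtype.ext
      rw [hσ, hρ]
      have e : αX a (g : X) = ((α a g : G) : X) := rfl
      rw [e, hρ, hσ]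
      simp
  have hfixX : ∀ x : X, (∀ a, αX a x = x) → x = 1 := by
    intro x
    induction x using QuotientGroup.induction_on with
    | H g =>
      intro h
      have hg : g ∈ C := coset_fixed hApg α C hCα hCcop hfix fun a => by
        have h1 : ((α a g : G) : X) = (g : X) := h a
        exact QuotientGroup.eq.mp h1.symm
      exact (QuotientGroup.eq_one_iff g).mpr hg
  have hVfix : ∀ v : V₀, (∀ a, σ a v = v) → v = 1 := by
    intro v hv
    apply Subtype.ext
    exact hfix _ fun a => congrArg Subtype.val (hv a)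
  have hρinj : Function.Injective ρ := QuotientGroup.kerLift_injective ρ₀
  have hXp : p.Coprime (Nat.card X) :=
    Nat.Coprime.coprime_dvd_right (Subgroup.card_quotient_dvd_card C) hGp
  have hirr : ∀ W : Subgroup V₀, (∀ x, ∀ w ∈ W, ρ x w ∈ W) → (∀ a, ∀ w ∈ W, σ a w ∈ W) →
      W ≠ ⊥ → W = ⊤ := by
    intro W hW1 hW2 hWne
    have hW' : W.map V₀.subtype = V₀ := by
      apply hmin
      · intro hbot
        apply hWne
        exact (Subgroup.map_eq_bot_iff_of_injective _ V₀.subtype_injective).mp hbot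
      · constructor
        rintro _ ⟨w, hw, rfl⟩ g
        exact ⟨ρ (g : X) w, hW1 _ w hw, hρ g w⟩
      · rintro a _ ⟨w, hw, rfl⟩
        exact ⟨σ a w, hW2 a w hw, rfl⟩
      · exact Subgroup.map_subtype_le W
    rw [eq_top_iff]
    intro v _
    have h1 : (v : G) ∈ W.map V₀.subtype := by rw [hW']; exact v.2
    obtain ⟨w, hw, hwv⟩ := h1
    have : w = v := Subtype.ext hwv
    rwa [← this]
  haveI hXsolv : Group.IsSolvable X := solvable_of_surjective (QuotientGroup.mk'_surjective C)
  have hnilX : Group.IsNilpotent X :=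
    nilpotent_of_irreducible hp hr hMcomm hAc hAp hAcard αX ρ σ compat hXsolv hfixX hVfix hρinj hVr
      hXp hirr
  -- induction
  have hVcop : p.Coprime (Nat.card V₀) :=
    Nat.Coprime.coprime_dvd_right (Subgroup.card_subgroup_dvd_card V₀) hGp
  have hlt : Nat.card (G ⧸ V₀) < n := by
    have h1 := Subgroup.card_eq_card_quotient_mul_card_subgroup V₀
    rw [hn] at h1
    have h2 : 1 < Nat.card V₀ := by
      have := (Nat.card_pos (α := V₀))
      omega
    have h3 : 0 < Nat.card (G ⧸ V₀) := Nat.card_pos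
    rw [h1]
    nlinarith
  have hfix₁ : ∀ x : G ⧸ V₀, (∀ a, quotHom α V₀ hV₀α a x = x) → x = 1 := by
    intro x
    induction x using QuotientGroup.induction_on with
    | H g =>
      intro h
      have hg : g ∈ V₀ := coset_fixed hApg α V₀ hV₀α hVcop hfix fun a => by
        have h1 : ((α a g : G) : G ⧸ V₀) = (g : G ⧸ V₀) := h a
        exact QuotientGroup.eq.mp h1.symm
      exact (QuotientGroup.eq_one_iff g).mpr hg
  obtain ⟨N₁, hN₁n, hN₁nil, k₁, hk₁⟩ := IH _ hlt (G ⧸ V₀) rfl
    (solvable_of_surjective (QuotientGroup.mk'_surjective V₀)) (quotHom α V₀ hV₀α) hfix₁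
  obtain ⟨k₂, hk₂⟩ := Subgroup.nilpotent_iff_lowerCentralSeries.mp hnilX
  let π₁ : G →* G ⧸ V₀ := QuotientGroup.mk' V₀
  let π₂ : G →* X := QuotientGroup.mk' C
  have hπ₁ : Function.Surjective π₁ := QuotientGroup.mk'_surjective V₀
  have hπ₂ : Function.Surjective π₂ := QuotientGroup.mk'_surjective C
  have hCn : C.Normal := MonoidHom.normal_ker ρ₀
  refine ⟨N₁.comap π₁ ⊓ C, Subgroup.normal_inf_normal _ _, ?_, max k₁ k₂, ?_⟩
  · let f : (N₁.comap π₁ ⊓ C : Subgroup G) →* N₁ :=
      (π₁.comp (N₁.comap π₁ ⊓ C : Subgroup G).subtype).codRestrict N₁ (fun x => x.2.1)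
    refine Subgroup.isNilpotent_of_ker_le_center f ?_
    intro x hx
    rw [Subgroup.mem_center_iff]
    intro y
    have h1 : π₁ x = 1 := congrArg Subtype.val hx
    have h2 : (x : G) ∈ V₀ := (QuotientGroup.eq_one_iff _).mp h1
    have h3 := (hCmem _).mp y.2.2 ⟨x, h2⟩
    apply Subtype.ext
    show (y : G) * x = x * y
    calc (y : G) * x = (y * x * (y : G)⁻¹) * y := by group
      _ = x * y := by rw [h3]
  · apply le_inf
    · intro x hx
      have h1 := Subgroup.lowerCentralSeries_antitone (⊤ : Subgroup G) (le_max_left k₁ k₂) hx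
      have h2 : π₁ x ∈ ((⊤ : Subgroup G).lowerCentralSeries k₁).map π₁ := ⟨x, h1, rfl⟩
      rw [Subgroup.map_lowerCentralSeries, Subgroup.map_top_of_surjective π₁ hπ₁] at h2
      exact hk₁ h2
    · intro x hx
      have h1 := Subgroup.lowerCentralSeries_antitone (⊤ : Subgroup G) (le_max_right k₁ k₂) hx
      have h2 : π₂ x ∈ ((⊤ : Subgroup G).lowerCentralSeries k₂).map π₂ := ⟨x, h1, rfl⟩
      rw [Subgroup.map_lowerCentralSeries, Subgroup.map_top_of_surjective π₂ hπ₂, hk₂,
        Subgroup.mem_bot] at h2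
      exact (QuotientGroup.eq_one_iff x).mp h2

end Cfsg.Agent.Lib.Ward.Main
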