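import Cfsg.Agent.Lib.Ward.Rigid
import Cfsg.Agent.Lib.FPFThompson.Main
import Cfsg.Agent.Lib.Solvable.Fitting

/-!
# Ward's theorem, part 5: a solvable group acting faithfully and irreducibly on a module is nilpotent
-/

set_option autoImplicit false

namespace Cfsg.Agent.Lib.Ward.Chief

open Cfsg Cfsg.Agent.Lib.Core.Basic Cfsg.Agent.Lib.FPFThompson.Main
open Cfsg.Agent.Lib.Ward.Norm Cfsg.Agent.Lib.Ward.Setup Cfsg.Agent.Lib.Ward.Elem
open Cfsg.Agent.Lib.Ward.Rigid
open scoped Pointwise

section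

variable {X A : Type*} [Group X] [Finite X] [Group A] [Finite A]

/-- A `p`-group acting on a `p'`-group leaves a Sylow subgroup invariant. -/
theorem exists_inv_sylow {p s : ℕ} [hp : Fact p.Prime] [Fact s.Prime] (hA : IsPGroup p A)
    (α : A →* MulAut X) (hX : p.Coprime (Nat.card X)) :
    ∃ S : Sylow s X, ∀ a, ∀ x ∈ (S : Subgroup X), α a x ∈ (S : Subgroup X) := by
  classical
  letI : MulAction A (Sylow s X) := MulAction.compHom _ α
  have h1 := hA.card_modEq_card_fixedPoints (Sylow s X)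
  have hne : (MulAction.fixedPoints A (Sylow s X)).Nonempty := by
    by_contra hemp
    rw [Set.not_nonempty_iff_eq_empty] at hemp
    rw [hemp] at h1
    have h2 : p ∣ Nat.card (Sylow s X) := by
      have h3 : Nat.card (Sylow s X) ≡ 0 [MOD p] := by simpa using h1
      exact (Nat.modEq_zero_iff_dvd).mp h3
    obtain ⟨S⟩ : Nonempty (Sylow s X) := inferInstance
    have h4 : Nat.card (Sylow s X) ∣ Nat.card X := by
      rw [Sylow.card_eq_index_normalizer S]
      exact Subgroup.index_dvd_card _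
    have h5 := Nat.dvd_gcd h2 (h2.trans h4) 
    have h6 : p ∣ Nat.card X := h2.trans h4
    rw [Nat.Coprime] at hX
    have h7 := Nat.dvd_gcd (dvd_refl p) h6
    rw [hX] at h7
    exact hp.out.one_lt.ne' (Nat.dvd_one.mp h7)
  obtain ⟨S, hS⟩ := hne
  refine ⟨S, fun a x hx => ?_⟩
  have h1 : a • S = S := hS a
  have h2 : (α a • (S : Subgroup X)) = (S : Subgroup X) := congrArg (fun T : Sylow s X => (T : Subgroup X)) h1
  rw [← h2]
  exact Subgroup.smul_mem_pointwise_smul x (α a) (S : Subgroup X) hx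

/-- Commutation in the fixed points of `c₀`, on which `b₀` is fixed point free. -/
theorem comm_of_fixed {p q s : ℕ} [Fact q.Prime] [Fact s.Prime] (hp : p.Prime) (hqs : q ≠ s)
    (c₀ b₀ : MulAut X) (hcomm : c₀ * b₀ = b₀ * c₀) (hb : b₀ ^ p = 1)
    (hfix : ∀ y, c₀ y = y → b₀ y = y → y = 1) (R S : Subgroup X) [R.Normal] (hR : IsPGroup q R)
    (hS : IsPGroup s S) (hRb : ∀ x ∈ R, b₀ x ∈ R) (hSb : ∀ x ∈ S, b₀ x ∈ S) {x k : X} (hx : x ∈ R)
    (hxc : c₀ x = x) (hk : k ∈ S) (hkc : c₀ k = k) : k * x * k⁻¹ = x := by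
  let Y : Subgroup X :=
    { carrier := {y | c₀ y = y}
      mul_mem' := by
        intro a b ha hb
        show c₀ (a * b) = a * b
        rw [map_mul, show c₀ a = a from ha, show c₀ b = b from hb]
      one_mem' := map_one c₀
      inv_mem' := by
        intro a ha
        show c₀ a⁻¹ = a⁻¹
        rw [map_inv, show c₀ a = a from ha] }
  have hY : ∀ y ∈ Y, b₀ y ∈ Y := by
    intro y hy
    show c₀ (b₀ y) = b₀ y
    have h1 : c₀ (b₀ y) = (c₀ * b₀) y := rfl
    rw [h1, hcomm]
    show b₀ (c₀ y) = b₀ y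
    rw [show c₀ y = y from hy]
  let φ : Y ≃* Y := restrictEquiv b₀ Y hY
  have hφ : MonoidHom.FixedPointFree (φ : Y →* Y) := by
    intro y hy
    apply Subtype.ext
    apply hfix _ y.2
    exact congrArg Subtype.val hy
  have hpow : (φ : Y → Y)^[p] = id := by
    apply restrict_pow
    funext y
    have h1 : ∀ n : ℕ, (b₀ : X → X)^[n] y = (b₀ ^ n) y := by
      intro n
      induction n with
      | zero => rfl
      | succ n ih =>
        rw [Function.iterate_succ_apply', ih, pow_succ']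
        rfl
    rw [h1, hb]
    rfl
  have hk' : (⟨k, hkc⟩ : Y) ∈ S.subgroupOf Y := Subgroup.mem_subgroupOf.mpr hk
  have hx' : (⟨x, hxc⟩ : Y) ∈ R.subgroupOf Y := Subgroup.mem_subgroupOf.mpr hx
  have key := le_centralizer_of_pgroup φ hφ p hp hpow (R.subgroupOf Y) (S.subgroupOf Y) q s hqs
    hR.comap_subtype hS.comap_subtype
    (fun y hy => Subgroup.mem_subgroupOf.mpr (hRb _ (Subgroup.mem_subgroupOf.mp hy)))
    (fun y hy => Subgroup.mem_subgroupOf.mpr (hSb _ (Subgroup.mem_subgroupOf.mp hy))) hk'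
  have h2 := Subgroup.mem_centralizer_iff.mp key _ hx'
  have h3 : x * k = k * x := congrArg Subtype.val h2
  rw [← h3]
  group

end

section Main

variable {X A M : Type*} [Group X] [Finite X] [Group A] [Finite A] [Group M] [Finite M]

/-- The `r`-core is trivial on an irreducible module over `F_r`. -/
theorem pCore_eq_bot {r : ℕ} [hr : Fact r.Prime] (hVr : ∃ k, Nat.card M = r ^ k) (α : A →* MulAut X)
    (ρ : X →* MulAut M) (σ : A →* MulAut M)
    (compat : ∀ a x v, σ a (ρ x v) = ρ (α a x) (σ a v)) (hρ : Function.Injective ρ)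
    (hirr : ∀ W : Subgroup M, (∀ x, ∀ w ∈ W, ρ x w ∈ W) → (∀ a, ∀ w ∈ W, σ a w ∈ W) → W ≠ ⊥ → W = ⊤) :
    pCore r X = ⊥ := by
  rw [eq_bot_iff]
  intro x hx
  rw [Subgroup.mem_bot]
  apply hρ
  rw [map_one]
  by_cases hV : Subsingleton M
  · ext v
    exact Subsingleton.elim _ _
  let P := pCore r X
  let W : Subgroup M :=
    { carrier := {v | ∀ y ∈ P, ρ y v = v}
      mul_mem' := by
        intro a b ha hb y hy
        rw [map_mul, ha y hy, hb y hy]
      one_mem' := fun y _ => map_one _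
      inv_mem' := by
        intro a ha y hy
        rw [map_inv, ha y hy] }
  have hPn : ∀ g : X, ∀ y ∈ P, g⁻¹ * y * g ∈ P := by
    intro g y hy
    have := (inferInstance : P.Normal).conj_mem y hy g⁻¹
    simpa using this
  have hW1 : ∀ g, ∀ w ∈ W, ρ g w ∈ W := by
    intro g w hw y hy
    have h1 := hw _ (hPn g y hy)
    have e : ρ y (ρ g w) = ρ g (ρ (g⁻¹ * y * g) w) := by
      rw [← MulAut.mul_apply, ← map_mul, ← MulAut.mul_apply, ← map_mul]
      congr 2
      group
    rw [e, h1]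
  have hW2 : ∀ a, ∀ w ∈ W, σ a w ∈ W := by
    intro a w hw y hy
    have h0 : α a⁻¹ y ∈ P := char_apply_mem P (α a⁻¹) hy
    have h1 := compat a (α a⁻¹ y) w
    rw [hw _ h0] at h1
    have e : α a (α a⁻¹ y) = y := by
      rw [← MulAut.mul_apply, ← map_mul]
      simp
    rw [e] at h1
    exact h1.symm
  have hWne : W ≠ ⊥ := by
    rw [not_subsingleton_iff_nontrivial] at hV
    letI : MulAction P M := MulAction.compHom M (ρ.comp P.subtype)
    obtain ⟨k, hk⟩ := hVr
    have hdvd : r ∣ Nat.card M := by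
      rw [hk]
      have hk0 : k ≠ 0 := by
        rintro rfl
        have h1 : Nat.card M = 1 := by simpa using hk
        exact (Finite.one_lt_card (α := M)).ne' h1
      exact dvd_pow_self r hk0
    have hPr : IsPGroup r P := pCore_isPGroup
    have h0 : (1 : M) ∈ MulAction.fixedPoints P M := fun y => map_one (ρ y)
    obtain ⟨b, hb, hb0⟩ := hPr.exists_fixed_point_of_prime_dvd_card_of_fixed_point M hdvd h0
    intro hbot
    have hbW : b ∈ W := fun y hy => hb ⟨y, hy⟩
    rw [hbot, Subgroup.mem_bot] at hbW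
    exact hb0 hbW.symm
  have htop := hirr W hW1 hW2 hWne
  ext v
  have hv : v ∈ W := by rw [htop]; exact Subgroup.mem_top v
  exact hv x hx

/-- The action on the additive version. -/
@[reducible] def addAct {Γ M' : Type*} [Group Γ] [CommGroup M'] (τ : Γ →* MulAut M') :
    DistribMulAction Γ (Additive M') where
  smul γ v := Additive.ofMul (τ γ v.toMul)
  one_smul v := by
    show Additive.ofMul (τ 1 v.toMul) = v
    rw [map_one]; rfl
  mul_smul a b v := by
    show Additive.ofMul (τ (a * b) v.toMul) = Additive.ofMul (τ a (τ b v.toMul))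
    rw [map_mul]; rfl
  smul_zero a := by
    show Additive.ofMul (τ a 1) = 0
    rw [map_one]; rfl
  smul_add a u v := by
    show Additive.ofMul (τ a (u.toMul * v.toMul)) = Additive.ofMul (τ a u.toMul * τ a v.toMul)
    rw [map_mul]

/-- The core step: `S` centralizes `O_q(X)`, if `q ≠ r` and `S` is an invariant `s`-subgroup, `s ≠ q`. -/
theorem comm_core {p r q s : ℕ} [Fact q.Prime] [Fact s.Prime] (hp : p.Prime) (hMcomm : ∀ a b : M, a * b = b * a)
    (hAc : ∀ a b : A, a * b = b * a) (hAp : ∀ a : A, a ^ p = 1) (hAcard : Nat.card A = p ^ 2)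
    (α : A →* MulAut X) (ρ : X →* MulAut M) (σ : A →* MulAut M)
    (compat : ∀ a x v, σ a (ρ x v) = ρ (α a x) (σ a v))
    (hfix : ∀ x, (∀ a, α a x = x) → x = 1) (hVfix : ∀ v, (∀ a, σ a v = v) → v = 1)
    (hρ : Function.Injective ρ) (hr : r.Prime) (hVr : ∃ k, Nat.card M = r ^ k) (hXp : p.Coprime (Nat.card X))
    (hqs : q ≠ s) (hqr : q ≠ r) (S : Subgroup X) (hS : IsPGroup s S) (hSα : ∀ a, ∀ x ∈ S, α a x ∈ S)
    {x k : X} (hx : x ∈ pCore q X) (hk : k ∈ S) : k * x * k⁻¹ = x := by
  classical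
  letI : CommGroup M := { ‹Group M› with mul_comm := hMcomm }
  let Γ := X ⋊[α] A
  haveI : Finite Γ := Finite.of_equiv (X × A) SemidirectProduct.equivProd.symm
  let τ : Γ →* MulAut M := SemidirectProduct.lift ρ σ (by
    intro a
    ext x v
    have h1 := compat a x ((σ a)⁻¹ v)
    simp only [MulAut.apply_inv_self] at h1
    exact h1.symm)
  letI : DistribMulAction Γ (Additive M) := addAct τ
  let inl : X →* Γ := SemidirectProduct.inl
  let inr : A →* Γ := SemidirectProduct.inr
  have hinl : Function.Injective inl := SemidirectProduct.inl_injective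
  have hinr : Function.Injective inr := SemidirectProduct.inr_injective
  have smul_inl : ∀ x v, (inl x : Γ) • (v : Additive M) = Additive.ofMul (ρ x v.toMul) := by
    intro x v
    show Additive.ofMul (τ (inl x) v.toMul) = _
    have : τ (inl x) = ρ x := SemidirectProduct.lift_inl _ _ _ _
    rw [this]
  have smul_inr : ∀ a v, (inr a : Γ) • (v : Additive M) = Additive.ofMul (σ a v.toMul) := by
    intro a v
    show Additive.ofMul (τ (inr a) v.toMul) = _
    have : τ (inr a) = σ a := SemidirectProduct.lift_inr _ _ _ _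
    rw [this]
  let A' : Subgroup Γ := inr.range
  have hE : IsE p A' := by
    refine ⟨hp, ?_, ?_, ?_⟩
    · rintro _ ⟨a, rfl⟩ _ ⟨b, rfl⟩
      rw [← map_mul, hAc, map_mul]
    · rintro _ ⟨a, rfl⟩
      rw [← map_pow, hAp, map_one]
    · exact (Nat.card_congr (MonoidHom.ofInjective hinr).toEquiv).symm.trans hAcard
  have hconj : ∀ a x, inr a * inl x * (inr a)⁻¹ = inl (α a x) := by
    intro a x
    have h1 := SemidirectProduct.inl_aut (φ := α) a x
    rw [map_inv] at h1
    exact h1.symm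
  have hInv : ∀ K : Subgroup X, (∀ a, ∀ x ∈ K, α a x ∈ K) → Inv p A' (K.map inl) := by
    intro K hK
    refine ⟨?_, ?_, ?_⟩
    · rintro _ ⟨a, rfl⟩ _ ⟨x, hx, rfl⟩
      rw [hconj]
      exact ⟨_, hK a x hx, rfl⟩
    · rintro _ ⟨x, hx, rfl⟩ h
      have h1 : x = 1 := hfix x fun a => hinl ((hconj a x).symm.trans (h _ ⟨a, rfl⟩))
      rw [h1, map_one]
    · rw [Subgroup.card_map_of_injective hinl]
      exact Nat.Coprime.coprime_dvd_right (Subgroup.card_subgroup_dvd_card K) hXp
  have hD : Data3 (V := Additive M) p q A' ((pCore q X).map inl) (S.map inl) :=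
    { E := hE
      invR := hInv _ fun a x hx => char_apply_mem _ (α a) hx
      invS := hInv S hSα
      SR := by
        rintro _ ⟨g, -, rfl⟩ _ ⟨x, hx, rfl⟩
        refine ⟨g * x * g⁻¹, (inferInstance : (pCore q X).Normal).conj_mem x hx g, ?_⟩
        rw [map_mul, map_mul, map_inv]
      qprime := Fact.out
      qgrp := pCore_isPGroup.map inl
      qV := by
        obtain ⟨n, hn⟩ := hVr
        have h1 : Nat.card (Additive M) = Nat.card M := rfl
        rw [h1, hn]
        exact Nat.Coprime.pow_right n ((Nat.coprime_primes Fact.out hr).mpr hqr)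
      Vfix := by
        intro v hv
        have h1 : v.toMul = 1 := hVfix _ fun a => by
          have h2 := hv _ ⟨a, rfl⟩
          rw [smul_inr] at h2
          exact congrArg Additive.toMul h2
        exact congrArg Additive.ofMul h1
      thomp := by
        rintro _ ⟨c, rfl⟩ hc1 _ ⟨x, hx, rfl⟩ hxc _ ⟨k, hk, rfl⟩ hkc
        have hfx : ∀ y, inr c * inl y = inl y * inr c → α c y = y := by
          intro y hy
          apply hinl
          rw [← hconj, hy, mul_inv_cancel_right]
        have hfx' : ∀ (b : A) y, α b y = y → inr b * inl y = inl y * inr b := by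
          intro b y hy
          have h1 := hconj b y
          rw [hy] at h1
          calc inr b * inl y = (inr b * inl y * (inr b)⁻¹) * inr b :=
                (inv_mul_cancel_right _ _).symm
            _ = inl y * inr b := by rw [h1]
        obtain ⟨_, ⟨b, rfl⟩, hb⟩ := hE.exists_notMem_zpowers (⟨c, rfl⟩ : inr c ∈ A')
        have hfixy : ∀ y, α c y = y → α b y = y → y = 1 := by
          intro y h1 h2
          have h3 := (hInv ⊤ fun a x _ => trivial).eq_one_of_comm hE ⟨c, rfl⟩ ⟨b, rfl⟩ hc1 hb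
            (⟨y, trivial, rfl⟩ : inl y ∈ (⊤ : Subgroup X).map inl) (hfx' c y h1) (hfx' b y h2)
          exact hinl (h3.trans (map_one inl).symm)
        have h5 := comm_of_fixed hp hqs (α c) (α b) (by rw [← map_mul, hAc, map_mul])
          (by rw [← map_pow, hAp, map_one]) hfixy (pCore q X) S pCore_isPGroup hS
          (fun x hx => char_apply_mem _ _ hx) (hSα b) hx (hfx x hxc) hk (hfx k hkc)
        rw [← map_inv, ← map_mul, ← map_mul, h5] }
  have key := hD.rigid _ ⊤ rfl (fun _ _ _ _ => trivial) (fun _ _ _ _ => trivial)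
    (fun _ _ _ _ => trivial) (inl x) ⟨x, hx, rfl⟩ (inl k) ⟨k, hk, rfl⟩
  apply hρ
  ext v
  have h1 := key (Additive.ofMul v) trivial
  rw [← map_inv, ← map_mul, ← map_mul, smul_inl, smul_inl] at h1
  exact congrArg Additive.toMul h1

/-- **Key theorem**: a solvable group on which `A` acts fixed point freely, acting faithfully and
irreducibly (with `A`) on an elementary abelian module without fixed points of `A`, is nilpotent. -/
theorem nilpotent_of_irreducible {p r : ℕ} (hp : p.Prime) (hr : r.Prime) (hMcomm : ∀ a b : M, a * b = b * a)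
    (hAc : ∀ a b : A, a * b = b * a) (hAp : ∀ a : A, a ^ p = 1) (hAcard : Nat.card A = p ^ 2)
    (α : A →* MulAut X) (ρ : X →* MulAut M) (σ : A →* MulAut M)
    (compat : ∀ a x v, σ a (ρ x v) = ρ (α a x) (σ a v)) (hsolv : Group.IsSolvable X)
    (hfix : ∀ x, (∀ a, α a x = x) → x = 1) (hVfix : ∀ v, (∀ a, σ a v = v) → v = 1)
    (hρ : Function.Injective ρ) (hVr : ∃ k, Nat.card M = r ^ k) (hXp : p.Coprime (Nat.card X))
    (hirr : ∀ W : Subgroup M, (∀ x, ∀ w ∈ W, ρ x w ∈ W) → (∀ a, ∀ w ∈ W, σ a w ∈ W) → W ≠ ⊥ → W = ⊤) :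
    Group.IsNilpotent X := by
  haveI : Fact p.Prime := ⟨hp⟩
  haveI : Fact r.Prime := ⟨hr⟩
  by_contra hnil
  have hFne : fittingSubgroup X ≠ ⊤ := fun h => hnil (fittingSubgroup_eq_top_iff.mp h)
  let F := fittingSubgroup X
  let π : X →* X ⧸ F := QuotientGroup.mk' F
  have hπ : Function.Surjective π := QuotientGroup.mk'_surjective F
  haveI hQsolv : Group.IsSolvable (X ⧸ F) := solvable_of_surjective hπ
  have hQnt : Nontrivial (X ⧸ F) := by
    rw [← not_subsingleton_iff_nontrivial]
    intro hsub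
    apply hFne
    rw [eq_top_iff]
    intro x _
    have h1 : π x = 1 := Subsingleton.elim _ _
    exact (QuotientGroup.eq_one_iff x).mp h1
  obtain ⟨s, hne⟩ : ∃ s : Nat.Primes, pCore (s : ℕ) (X ⧸ F) ≠ ⊥ := by
    by_contra hcon
    push Not at hcon
    have h1 : fittingSubgroup (X ⧸ F) = ⊥ := by
      rw [fittingSubgroup_eq_iSup_pCore]
      exact iSup_eq_bot.mpr hcon
    have h2 := Cfsg.Agent.Lib.Solvable.Fitting.centralizer_fittingSubgroup_le (G := X ⧸ F)
    rw [h1] at h2
    have h3 : (⊤ : Subgroup (X ⧸ F)) ≤ ⊥ := by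
      intro y _
      apply h2
      rw [Subgroup.mem_centralizer_iff]
      intro z hz
      rw [Subgroup.mem_bot.mp hz]
      simp
    obtain ⟨a, b, hab⟩ := hQnt
    exact hab ((Subgroup.mem_bot.mp (h3 (Subgroup.mem_top a))).trans
      (Subgroup.mem_bot.mp (h3 (Subgroup.mem_top b))).symm)
  haveI : Fact (s : ℕ).Prime := ⟨s.2⟩
  have hApg : IsPGroup p A := IsPGroup.of_card (n := 2) hAcard
  obtain ⟨S, hSα⟩ := exists_inv_sylow (p := p) (s := (s : ℕ)) hApg α hXp
  have hcent : ∀ q : Nat.Primes, (q : ℕ) ≠ s → ∀ x ∈ pCore (q : ℕ) X, ∀ k ∈ (S : Subgroup X),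
      k * x * k⁻¹ = x := by
    intro q hq x hx k hk
    haveI : Fact (q : ℕ).Prime := ⟨q.2⟩
    by_cases hqr : (q : ℕ) = r
    · have hbot := pCore_eq_bot (r := r) hVr α ρ σ compat hρ hirr
      rw [hqr, hbot] at hx
      rw [Subgroup.mem_bot.mp hx]
      simp
    · exact comm_core hp hMcomm hAc hAp hAcard α ρ σ compat hfix hVfix hρ hr hVr hXp hq hqr S
        S.isPGroup' hSα hx hk
  let F₂ : Subgroup X := (pCore (s : ℕ) (X ⧸ F)).comap π
  let S₀ : Subgroup X := (S : Subgroup X) ⊓ F₂
  let C : Subgroup X := ⨆ r : {r : Nat.Primes // (r : ℕ) ≠ s}, pCore ((r.1 : Nat.Primes) : ℕ) X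
  have hFF₂ : F ≤ F₂ := by
    intro x hx
    show π x ∈ pCore (s : ℕ) (X ⧸ F)
    have h0 : π x = 1 := (QuotientGroup.eq_one_iff x).mpr hx
    rw [h0]
    exact Subgroup.one_mem _
  have hCF : C ≤ F := by
    apply iSup_le
    rintro ⟨r, hr⟩
    haveI : Fact ((r : ℕ)).Prime := ⟨r.2⟩
    exact pCore_le_fittingSubgroup (r : ℕ)
  have hS₀C : S₀ ≤ Subgroup.centralizer (C : Set X) := by
    rw [Subgroup.le_centralizer_iff]
    apply iSup_le
    rintro ⟨r, hr⟩
    rw [← Subgroup.le_centralizer_iff]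
    intro k hk
    rw [Subgroup.mem_centralizer_iff]
    intro x hx
    have h1 := hcent r hr x hx k hk.1
    calc x * k = (k * x * k⁻¹) * k := by rw [h1]
      _ = k * x := by group
  have hS₀nil : Group.IsNilpotent S₀ :=
    (S.isPGroup'.to_le (inf_le_left : S₀ ≤ (S : Subgroup X))).isNilpotent
  haveI hFnil : Group.IsNilpotent F := fittingSubgroup_isNilpotent
  have hCnil : Group.IsNilpotent C :=
    isNilpotent_of_injective (Subgroup.inclusion hCF) (Subgroup.inclusion_injective hCF)
  have hT := sup_nilpotent_of_commute S₀ C hS₀nil hCnil hS₀C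
  have hFle : F ≤ S₀ ⊔ C := by
    show fittingSubgroup X ≤ S₀ ⊔ C
    rw [fittingSubgroup_eq_iSup_pCore]
    apply iSup_le
    intro r
    haveI : Fact (r : ℕ).Prime := ⟨r.2⟩
    by_cases hr : (r : ℕ) = s
    · have hrs : r = s := Subtype.ext hr
      subst hrs
      exact le_sup_of_le_left (le_inf (pCore_le_sylow S) ((pCore_le_fittingSubgroup _).trans hFF₂))
    · exact le_sup_of_le_right (le_iSup (fun r : {r : Nat.Primes // (r : ℕ) ≠ s} =>
        pCore ((r.1 : Nat.Primes) : ℕ) X) ⟨r, hr⟩)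
  have hF₂eq : F₂ = S₀ ⊔ C := by
    apply le_antisymm
    · intro x hx
      let Q' : Sylow (s : ℕ) (X ⧸ F) := S.mapSurjective (f := π) hπ
      have h1 : π x ∈ (Q' : Subgroup (X ⧸ F)) := pCore_le_sylow Q' hx
      obtain ⟨g, hg, hgx⟩ := h1
      have hgF₂ : g ∈ F₂ := by
        show π g ∈ pCore (s : ℕ) (X ⧸ F)
        rw [hgx]
        exact hx
      have h2 : g⁻¹ * x ∈ F := by
        apply (QuotientGroup.eq_one_iff _).mp
        show π (g⁻¹ * x) = 1
        rw [map_mul, map_inv, hgx]
        simp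
      have e : x = g * (g⁻¹ * x) := by group
      rw [e]
      exact Subgroup.mul_mem _ (Subgroup.mem_sup_left ⟨hg, hgF₂⟩) (hFle h2)
    · exact sup_le inf_le_right (hCF.trans hFF₂)
  have hF₂nil : Group.IsNilpotent F₂ := by
    rw [hF₂eq]; exact hT
  have hF₂n : F₂.Normal := (inferInstance : (pCore (s : ℕ) (X ⧸ F)).Normal).comap π
  have hle : F₂ ≤ F := le_fittingSubgroup hF₂n hF₂nil
  apply hne
  rw [eq_bot_iff]
  intro y hy
  obtain ⟨x, rfl⟩ := hπ y
  exact Subgroup.mem_bot.mpr ((QuotientGroup.eq_one_iff x).mpr (hle hy))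

end Main

end Cfsg.Agent.Lib.Ward.Chief
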