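import Mathlib

/-!
# Ward's theorem, part 1: norm identities for a Frobenius action

`J` a subgroup and `a` an element of order dividing the prime `p` acting on `J` without fixed
points.  On a module: `|J| v = ∑_{g ∈ J} g N_a g⁻¹ v` for `v = y w - w`.
-/

set_option autoImplicit false

namespace Cfsg.Agent.Lib.Ward.Norm

open Finset

variable {Γ V : Type*} [Group Γ] [AddCommGroup V] [DistribMulAction Γ V]

/-- The norm along `a`. -/
def nrm (p : ℕ) (a : Γ) (v : V) : V := ∑ i ∈ range p, a ^ i • v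

theorem smul_nrm {p : ℕ} {a : Γ} (hp : a ^ p = 1) (v : V) : a • nrm p a v = nrm p a v := by
  unfold nrm
  rw [Finset.smul_sum]
  have h1 : ∑ i ∈ range p, a • a ^ i • v = ∑ i ∈ range p, a ^ (i + 1) • v := by
    refine Finset.sum_congr rfl fun i _ => ?_
    rw [pow_succ', mul_smul]
  rw [h1]
  have h2 := Finset.sum_range_succ (fun i => a ^ i • v) p
  have h3 := Finset.sum_range_succ' (fun i => a ^ i • v) p
  rw [h2] at h3
  simp only [hp, one_smul, pow_zero] at h3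
  exact (add_right_cancel h3).symm

theorem pow_smul_mem (W : AddSubgroup V) {a : Γ} (ha : ∀ w ∈ W, a • w ∈ W) (n : ℕ) {w : V}
    (hw : w ∈ W) : a ^ n • w ∈ W := by
  induction n with
  | zero => simpa using hw
  | succ n ih =>
    rw [pow_succ', mul_smul]
    exact ha _ ih

theorem nrm_mem (W : AddSubgroup V) {a : Γ} (ha : ∀ w ∈ W, a • w ∈ W) (p : ℕ) {w : V}
    (hw : w ∈ W) : nrm p a w ∈ W :=
  W.sum_mem fun i _ => pow_smul_mem W ha i hw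

theorem exists_pow_pow_eq {a : Γ} {p : ℕ} (hp : p.Prime) (ha : a ^ p = 1) {i : ℕ} (hi0 : 0 < i)
    (hip : i < p) : ∃ u : ℕ, (a ^ i) ^ u = a := by
  have hc : Nat.Coprime i p := (Nat.coprime_of_lt_prime hi0.ne' hip hp).symm
  obtain ⟨m, -, hm⟩ := Nat.exists_mul_mod_eq_one_of_coprime hc hp.one_lt
  refine ⟨m, ?_⟩
  rw [← pow_mul, pow_eq_pow_mod _ ha, hm, pow_one]

theorem conj_pow_mem (J : Subgroup Γ) {a : Γ} (hN : ∀ y ∈ J, a * y * a⁻¹ ∈ J) (n : ℕ) {y : Γ}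
    (hy : y ∈ J) : a ^ n * y * (a ^ n)⁻¹ ∈ J := by
  induction n with
  | zero => simpa using hy
  | succ n ih =>
    have := hN _ ih
    have e : a ^ (n + 1) * y * (a ^ (n + 1))⁻¹ = a * (a ^ n * y * (a ^ n)⁻¹) * a⁻¹ := by
      rw [pow_succ']; group
    rw [e]; exact this

theorem fix_of_pow_fix {a : Γ} {p : ℕ} (hp : p.Prime) (ha : a ^ p = 1) {i : ℕ} (hi0 : 0 < i)
    (hip : i < p) {y : Γ} (h : a ^ i * y * (a ^ i)⁻¹ = y) : a * y * a⁻¹ = y := by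
  obtain ⟨u, hu⟩ := exists_pow_pow_eq hp ha hi0 hip
  have h1 : Commute (a ^ i) y := by
    show a ^ i * y = y * a ^ i
    calc a ^ i * y = (a ^ i * y * (a ^ i)⁻¹) * a ^ i := by group
      _ = y * a ^ i := by rw [h]
  have h2 : Commute a y := by
    rw [← hu]; exact h1.pow_left u
  rw [h2.eq]; group

/-- The map `g ↦ g * (a^i g⁻¹ a^{-i})` is bijective. -/
theorem theta_bijective (J : Subgroup Γ) [Finite J] {a : Γ} {p : ℕ} (hp : p.Prime) (ha : a ^ p = 1)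
    (hN : ∀ y ∈ J, a * y * a⁻¹ ∈ J) (hfix : ∀ y ∈ J, a * y * a⁻¹ = y → y = 1) {i : ℕ} (hi0 : 0 < i)
    (hip : i < p) :
    Function.Bijective (fun g : J => (⟨(g : Γ) * (a ^ i * (g : Γ)⁻¹ * (a ^ i)⁻¹),
      J.mul_mem g.2 (conj_pow_mem J hN i (J.inv_mem g.2))⟩ : J)) := by
  apply Function.Injective.bijective_of_finite
  intro g h hgh
  have h1 : (g : Γ) * (a ^ i * (g : Γ)⁻¹ * (a ^ i)⁻¹) = (h : Γ) * (a ^ i * (h : Γ)⁻¹ * (a ^ i)⁻¹) :=
    congrArg Subtype.val hgh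
  have h2 : a ^ i * ((h : Γ)⁻¹ * g) * (a ^ i)⁻¹ = (h : Γ)⁻¹ * g := by
    generalize a ^ i = A at h1 ⊢
    calc A * ((h : Γ)⁻¹ * g) * A⁻¹ = (h : Γ)⁻¹ * ((h : Γ) * (A * (h : Γ)⁻¹ * A⁻¹)) * (A * (g : Γ)⁻¹ * A⁻¹)⁻¹ := by group
      _ = (h : Γ)⁻¹ * ((g : Γ) * (A * (g : Γ)⁻¹ * A⁻¹)) * (A * (g : Γ)⁻¹ * A⁻¹)⁻¹ := by rw [h1]
      _ = (h : Γ)⁻¹ * g := by group
  have h3 := fix_of_pow_fix hp ha hi0 hip h2
  have h4 := hfix _ (J.mul_mem (J.inv_mem h.2) g.2) h3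
  apply Subtype.ext
  have h5 : (g : Γ) = h * ((h : Γ)⁻¹ * g) := by group
  rw [h5, h4, mul_one]

/-- The main identity. -/
theorem sum_nrm_eq (J : Subgroup Γ) [Fintype J] {a : Γ} {p : ℕ} (hp : p.Prime) (ha : a ^ p = 1)
    (hN : ∀ y ∈ J, a * y * a⁻¹ ∈ J) (hfix : ∀ y ∈ J, a * y * a⁻¹ = y → y = 1) (v : V)
    (hv : ∀ i, 0 < i → i < p → ∑ y : J, (y : Γ) • (a ^ i • v) = 0) :
    ∑ g : J, (g : Γ) • nrm p a ((g : Γ)⁻¹ • v) = Fintype.card J • v := by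
  have h1 : ∀ g : J, (g : Γ) • nrm p a ((g : Γ)⁻¹ • v) =
      ∑ i ∈ range p, ((g : Γ) * a ^ i * (g : Γ)⁻¹) • v := by
    intro g
    unfold nrm
    rw [Finset.smul_sum]
    refine Finset.sum_congr rfl fun i _ => ?_
    simp only [mul_smul]
  simp_rw [h1]
  rw [Finset.sum_comm]
  obtain ⟨q, rfl⟩ : ∃ q, p = q + 1 := ⟨p - 1, by have := hp.pos; omega⟩
  rw [Finset.sum_range_succ']
  have h2 : ∀ i ∈ range q, ∑ g : J, ((g : Γ) * a ^ (i + 1) * (g : Γ)⁻¹) • v = 0 := by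
    intro i hi
    have hi1 : i + 1 < q + 1 := by simpa using Finset.mem_range.mp hi
    have hi0 : 0 < i + 1 := by omega
    have hb := theta_bijective J hp ha hN hfix hi0 hi1
    rw [← hv (i + 1) hi0 hi1]
    rw [← hb.sum_comp (fun y : J => (y : Γ) • (a ^ (i + 1) • v))]
    refine Finset.sum_congr rfl fun g _ => ?_
    rw [← mul_smul]
    congr 1
    show (g : Γ) * a ^ (i + 1) * (g : Γ)⁻¹ =
      ((g : Γ) * (a ^ (i + 1) * (g : Γ)⁻¹ * (a ^ (i + 1))⁻¹)) * a ^ (i + 1)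
    generalize a ^ (i + 1) = A
    group
  rw [Finset.sum_eq_zero h2, zero_add]
  simp

theorem sum_smul_sub (J : Subgroup Γ) [Fintype J] {y : Γ} (hy : y ∈ J) (w : V) :
    ∑ x : J, (x : Γ) • (y • w - w) = 0 := by
  simp_rw [smul_sub]
  rw [Finset.sum_sub_distrib, sub_eq_zero]
  refine Fintype.sum_equiv (Equiv.mulRight (⟨y, hy⟩ : J)) _ _ fun x => ?_
  simp [mul_smul]

theorem card_smul_eq (J : Subgroup Γ) [Fintype J] {a : Γ} {p : ℕ} (hp : p.Prime) (ha : a ^ p = 1)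
    (hN : ∀ y ∈ J, a * y * a⁻¹ ∈ J) (hfix : ∀ y ∈ J, a * y * a⁻¹ = y → y = 1) {y : Γ} (hy : y ∈ J)
    (w : V) :
    ∑ g : J, (g : Γ) • nrm p a ((g : Γ)⁻¹ • (y • w - w)) = Fintype.card J • (y • w - w) := by
  apply sum_nrm_eq J hp ha hN hfix
  intro i _ _
  have e : a ^ i • (y • w - w) = (a ^ i * y * (a ^ i)⁻¹) • (a ^ i • w) - a ^ i • w := by
    rw [smul_sub, ← mul_smul, ← mul_smul]
    congr 2
    generalize a ^ i = A
    group
  rw [e]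
  exact sum_smul_sub J (conj_pow_mem J hN i hy) _

/-- Frobenius: `a` fixed point free on the module ⟹ `J` acts trivially. -/
theorem frob_trivial (J : Subgroup Γ) [Finite J] {a : Γ} {p : ℕ} (hp : p.Prime) (ha : a ^ p = 1)
    (hN : ∀ y ∈ J, a * y * a⁻¹ ∈ J) (hfix : ∀ y ∈ J, a * y * a⁻¹ = y → y = 1) (W : AddSubgroup V)
    (hJW : ∀ y ∈ J, ∀ w ∈ W, y • w ∈ W) (haW : ∀ w ∈ W, a • w ∈ W)
    (hWfix : ∀ w ∈ W, a • w = w → w = 0) (hinv : ∀ w ∈ W, Nat.card J • w = 0 → w = 0)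
    {y : Γ} (hy : y ∈ J) {w : V} (hw : w ∈ W) : y • w = w := by
  classical
  haveI := Fintype.ofFinite J
  have hvW : y • w - w ∈ W := W.sub_mem (hJW y hy w hw) hw
  have h := card_smul_eq J hp ha hN hfix hy w
  have h0 : ∑ g : J, (g : Γ) • nrm p a ((g : Γ)⁻¹ • (y • w - w)) = 0 := by
    apply Finset.sum_eq_zero
    intro g _
    have h1 : (g : Γ)⁻¹ • (y • w - w) ∈ W := hJW _ (J.inv_mem g.2) _ hvW
    have h2 := hWfix _ (nrm_mem W haW p h1) (smul_nrm ha _)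
    rw [h2, smul_zero]
  rw [h0, ← Nat.card_eq_fintype_card] at h
  exact sub_eq_zero.mp (hinv _ hvW h.symm)

/-- Anything fixing the conjugates `g C_W(a)`, `g ∈ J`, fixes `[W, J]`. -/
theorem comm_fixed (J : Subgroup Γ) [Finite J] {a : Γ} {p : ℕ} (hp : p.Prime) (ha : a ^ p = 1)
    (hN : ∀ y ∈ J, a * y * a⁻¹ ∈ J) (hfix : ∀ y ∈ J, a * y * a⁻¹ = y → y = 1) (W : AddSubgroup V)
    (hJW : ∀ y ∈ J, ∀ w ∈ W, y • w ∈ W) (haW : ∀ w ∈ W, a • w ∈ W)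
    (hinv : ∀ w ∈ W, Nat.card J • w = 0 → w = 0) (u : Γ) (huW : ∀ w ∈ W, u • w ∈ W)
    (hu : ∀ g ∈ J, ∀ w ∈ W, a • w = w → u • (g • w) = g • w)
    {y : Γ} (hy : y ∈ J) {w : V} (hw : w ∈ W) : u • (y • w - w) = y • w - w := by
  classical
  haveI := Fintype.ofFinite J
  have hvW : y • w - w ∈ W := W.sub_mem (hJW y hy w hw) hw
  have h := card_smul_eq J hp ha hN hfix hy w
  have h1 : u • ∑ g : J, (g : Γ) • nrm p a ((g : Γ)⁻¹ • (y • w - w)) =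
      ∑ g : J, (g : Γ) • nrm p a ((g : Γ)⁻¹ • (y • w - w)) := by
    rw [Finset.smul_sum]
    refine Finset.sum_congr rfl fun g _ => ?_
    have h2 : (g : Γ)⁻¹ • (y • w - w) ∈ W := hJW _ (J.inv_mem g.2) _ hvW
    exact hu _ g.2 _ (nrm_mem W haW p h2) (smul_nrm ha _)
  rw [h, smul_comm] at h1
  have h3 : Nat.card J • (u • (y • w - w) - (y • w - w)) = 0 := by
    rw [smul_sub, Nat.card_eq_fintype_card, h1, sub_self]
  exact sub_eq_zero.mp (hinv _ (W.sub_mem (huW _ hvW) hvW) h3)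

/-- Cancel an order coprime to `|V|`. -/
theorem nsmul_cancel [Finite V] {n : ℕ} (hn : n.Coprime (Nat.card V)) {w : V} (h : n • w = 0) :
    w = 0 := by
  have h1 : addOrderOf w ∣ n := addOrderOf_dvd_of_nsmul_eq_zero h
  have h2 : addOrderOf w ∣ Nat.card V := addOrderOf_dvd_natCard w
  have h3 : addOrderOf w = 1 := Nat.eq_one_of_dvd_coprimes hn h1 h2
  exact AddMonoid.addOrderOf_eq_one_iff.mp h3

end Cfsg.Agent.Lib.Ward.Norm
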