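import Cfsg.Agent.Lib.Ward.Elem

/-!
# Ward's theorem, part 4: `[R, S]` acts trivially, for `R` a `q`-group, `S` normalizing `R`.
-/

set_option autoImplicit false

namespace Cfsg.Agent.Lib.Ward.Rigid

open Cfsg.Agent.Lib.Ward.Norm Cfsg.Agent.Lib.Ward.Setup Cfsg.Agent.Lib.Ward.Elem

variable {Γ V : Type*} [Group Γ] [Finite Γ] [AddCommGroup V] [Finite V] [DistribMulAction Γ V]

omit [Finite Γ] [Finite V] in
/-- Powers of commuting operators, I. -/
theorem pow_smul_comm {W : AddSubgroup V} {x y : Γ} (hxW : ∀ w ∈ W, x • w ∈ W) (hyW : ∀ w ∈ W, y • w ∈ W)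
    (hc : ∀ w ∈ W, (x * y) • w = (y * x) • w) (n : ℕ) : ∀ w ∈ W, y ^ n • x • w = x • y ^ n • w := by
  induction n with
  | zero => simp
  | succ n ih =>
    intro w hw
    have h1 : y • x • w = x • y • w := by
      rw [← mul_smul, ← mul_smul]; exact (hc w hw).symm
    rw [pow_succ, mul_smul, mul_smul, h1, ih _ (hyW w hw)]

omit [Finite Γ] [Finite V] in
/-- Powers of commuting operators, II. -/
theorem mul_pow_smul {W : AddSubgroup V} {x y : Γ} (hxW : ∀ w ∈ W, x • w ∈ W) (hyW : ∀ w ∈ W, y • w ∈ W)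
    (hc : ∀ w ∈ W, (x * y) • w = (y * x) • w) (n : ℕ) :
    ∀ w ∈ W, (x * y) ^ n • w = x ^ n • y ^ n • w := by
  induction n with
  | zero => simp
  | succ n ih =>
    intro w hw
    rw [pow_succ, mul_smul, ih _ (by rw [mul_smul]; exact hxW _ (hyW w hw)), mul_smul,
      pow_smul_comm hxW hyW hc n _ (hyW w hw), pow_succ, pow_succ, mul_smul, mul_smul]

/-- A central element of order `q` in `R / C`. -/
theorem exists_central {q : ℕ} (hq : q.Prime) (R C : Subgroup Γ) (hCn : ∀ x ∈ R, ∀ c ∈ C, x * c * x⁻¹ ∈ C)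
    (hR : IsPGroup q R) {x₁ : Γ} (hx₁ : x₁ ∈ R) (hx₁C : x₁ ∉ C) :
    ∃ x₀ ∈ R, x₀ ∉ C ∧ x₀ ^ q ∈ C ∧ ∀ y ∈ R, x₀ * y * x₀⁻¹ * y⁻¹ ∈ C := by
  haveI : Fact q.Prime := ⟨hq⟩
  haveI hN : (C.subgroupOf R).Normal := by
    constructor
    intro n hn g
    exact hCn g g.2 n hn
  let Q := R ⧸ C.subgroupOf R
  have hQ : IsPGroup q Q := hR.to_quotient _
  have hne : (QuotientGroup.mk (⟨x₁, hx₁⟩ : R) : Q) ≠ 1 := by
    rw [Ne, QuotientGroup.eq_one_iff]
    exact hx₁C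
  haveI : Nontrivial Q := ⟨⟨_, _, hne⟩⟩
  haveI hcen : Nontrivial (Subgroup.center Q) := hQ.center_nontrivial
  have hdvd : q ∣ Nat.card (Subgroup.center Q) := by
    obtain ⟨n, hn⟩ := IsPGroup.iff_card.mp (hQ.to_subgroup (Subgroup.center Q))
    rw [hn]
    have hn0 : n ≠ 0 := by
      rintro rfl
      have h1 : Nat.card (Subgroup.center Q) = 1 := by simpa using hn
      exact (Finite.one_lt_card (α := Subgroup.center Q)).ne' h1
    exact dvd_pow_self q hn0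
  obtain ⟨z, hz⟩ := exists_prime_orderOf_dvd_card' q hdvd
  obtain ⟨x₀, hx₀⟩ := QuotientGroup.mk_surjective (z : Q)
  have hz1 : (z : Q) ≠ 1 := by
    intro h
    have h2 : z = 1 := Subtype.ext h
    rw [h2, orderOf_one] at hz
    exact hq.one_lt.ne hz
  refine ⟨x₀, x₀.2, ?_, ?_, ?_⟩
  · intro hmem
    apply hz1
    rw [← hx₀]
    exact (QuotientGroup.eq_one_iff _).mpr hmem
  · have h1 : ((x₀ ^ q : R) : Q) = 1 := by
      rw [QuotientGroup.mk_pow, hx₀]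
      have := pow_orderOf_eq_one z
      rw [hz] at this
      exact congrArg Subtype.val this
    have h2 : (x₀ ^ q : R) ∈ C.subgroupOf R := (QuotientGroup.eq_one_iff _).mp h1
    simpa using Subgroup.mem_subgroupOf.mp h2
  · intro y hy
    have h1 : ((x₀ * ⟨y, hy⟩ * x₀⁻¹ * (⟨y, hy⟩ : R)⁻¹ : R) : Q) = 1 := by
      rw [QuotientGroup.mk_mul, QuotientGroup.mk_mul, QuotientGroup.mk_mul, QuotientGroup.mk_inv,
        QuotientGroup.mk_inv, hx₀]
      have h2 := (Subgroup.mem_center_iff.mp z.2) ((⟨y, hy⟩ : R) : Q)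
      rw [← h2]
      group
    have h3 : (x₀ * ⟨y, hy⟩ * x₀⁻¹ * (⟨y, hy⟩ : R)⁻¹ : R) ∈ C.subgroupOf R :=
      (QuotientGroup.eq_one_iff _).mp h1
    simpa using Subgroup.mem_subgroupOf.mp h3

/-- The global data. -/
structure Data3 (p q : ℕ) (A R S : Subgroup Γ) : Prop where
  E : IsE p A
  invR : Inv p A R
  invS : Inv p A S
  SR : ∀ g ∈ S, ∀ x ∈ R, g * x * g⁻¹ ∈ R
  qprime : q.Prime
  qgrp : IsPGroup q R
  qV : q.Coprime (Nat.card V)
  Vfix : ∀ v : V, (∀ a ∈ A, a • v = v) → v = 0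
  thomp : ∀ c ∈ A, c ≠ 1 → ∀ x ∈ R, c * x = x * c → ∀ k ∈ S, c * k = k * c → k * x * k⁻¹ = x

namespace Data3

variable {p q : ℕ} {A R S : Subgroup Γ} (h : Data3 (V := V) p q A R S)
include h

omit [Finite V] in
theorem SR' {g x : Γ} (hg : g ∈ S) (hx : x ∈ R) : g⁻¹ * x * g ∈ R := by
  simpa using h.SR g⁻¹ (S.inv_mem hg) x hx

/-- Part of the proof for a `c`-block. -/
theorem on_block {c : Γ} (hc : c ∈ A) (hc1 : c ≠ 1) (B : AddSubgroup V)
    (hBR : ∀ x ∈ R, ∀ v ∈ B, x • v ∈ B) (hBS : ∀ g ∈ S, ∀ v ∈ B, g • v ∈ B)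
    (hBA : ∀ a ∈ A, ∀ v ∈ B, a • v ∈ B)
    (hF : ∀ d ∈ A, d ∉ Subgroup.zpowers c → ∀ u ∈ R, d * u = u * d → ∀ v ∈ B, u • v = v)
    {g x : Γ} {v : V} (hg : g ∈ S) (hx : x ∈ R) (hv : v ∈ B) : (g * x * g⁻¹) • v = x • v := by
  have hE := h.E
  have star : ∀ x ∈ R, ∃ y ∈ R, c * y = y * c ∧ ∀ v ∈ B, x • v = y • v := by
    let T : Subgroup Γ :=
      { carrier := {x | x ∈ R ∧ ∃ y ∈ R, c * y = y * c ∧ ∀ v ∈ B, x • v = y • v}
        mul_mem' := by
          rintro x₁ x₂ ⟨h1, y₁, hy₁, hc₁, h2⟩ ⟨k1, y₂, hy₂, hc₂, k2⟩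
          refine ⟨R.mul_mem h1 k1, y₁ * y₂, R.mul_mem hy₁ hy₂, ?_, fun v hv => ?_⟩
          · rw [← mul_assoc, hc₁, mul_assoc, hc₂, mul_assoc]
          · rw [mul_smul, k2 v hv, h2 _ (hBR y₂ hy₂ v hv), mul_smul]
        one_mem' := ⟨R.one_mem, 1, R.one_mem, by simp, fun v _ => rfl⟩
        inv_mem' := by
          rintro x₁ ⟨h1, y₁, hy₁, hc₁, h2⟩
          refine ⟨R.inv_mem h1, y₁⁻¹, R.inv_mem hy₁, ?_, fun v hv => ?_⟩
          · have : Commute c y₁ := hc₁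
            exact this.inv_right
          · rw [inv_smul_eq_iff, h2 _ (hBR _ (R.inv_mem hy₁) v hv), smul_inv_smul] }
    have hT : T = R := h.invR.gen hE (fun x hx => hx.1) (by
      intro e he he1 x hx
      obtain ⟨hx1, hx2⟩ := mem_cen.mp hx
      refine ⟨hx1, ?_⟩
      by_cases hec : e ∈ Subgroup.zpowers c
      · have h3 : c ∈ Subgroup.zpowers e := mem_zpowers_symm hE.prime (hE.pow c hc) hec he1
        exact ⟨x, hx1, cen_eq_of_mem h3 hx2, fun v _ => rfl⟩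
      · exact ⟨1, R.one_mem, by simp, fun v hv => by
          rw [one_smul, hF e he hec x hx1 hx2 v hv]⟩)
    intro x hx
    have : x ∈ T := by rw [hT]; exact hx
    exact this.2
  have hBc' : ∀ v ∈ B, c⁻¹ • v ∈ B := fun v hv => hBA _ (A.inv_mem hc) v hv
  have H1 : ∀ x ∈ R, ∀ v ∈ B, (c * x * c⁻¹) • v = x • v := by
    intro x hx v hv
    obtain ⟨y, hy, hyc, hxy⟩ := star x hx
    have e : (c * y * c⁻¹) = y := by rw [hyc]; group
    rw [mul_smul, mul_smul, hxy _ (hBc' v hv), ← mul_smul, ← mul_smul, e, hxy v hv]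
  let Y : Subgroup Γ :=
    { carrier := {g | g ∈ S ∧ ∀ x ∈ R, ∀ v ∈ B, (g * x * g⁻¹) • v = x • v}
      mul_mem' := by
        rintro g g' ⟨hg1, hg2⟩ ⟨hg1', hg2'⟩
        refine ⟨S.mul_mem hg1 hg1', fun x hx v hv => ?_⟩
        have e : g * g' * x * (g * g')⁻¹ = g * (g' * x * g'⁻¹) * g⁻¹ := by group
        rw [e, hg2 _ (h.SR g' hg1' x hx) v hv, hg2' x hx v hv]
      one_mem' := ⟨S.one_mem, fun x _ v _ => by simp⟩
      inv_mem' := by
        rintro g ⟨hg1, hg2⟩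
        refine ⟨S.inv_mem hg1, fun x hx v hv => ?_⟩
        have hx' : g⁻¹ * x * g⁻¹⁻¹ ∈ R := h.SR _ (S.inv_mem hg1) x hx
        have h1 := hg2 _ hx' v hv
        have e : g * (g⁻¹ * x * g⁻¹⁻¹) * g⁻¹ = x := by group
        rw [e] at h1
        exact h1.symm }
  have hY : Y = S := h.invS.gen hE (fun x hx => hx.1) (by
    intro b hb hb1 k hk
    obtain ⟨hk1, hk2⟩ := mem_cen.mp hk
    refine ⟨hk1, fun x hx v hv => ?_⟩
    by_cases hbc : b ∈ Subgroup.zpowers c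
    · have hcb : c ∈ Subgroup.zpowers b := mem_zpowers_symm hE.prime (hE.pow c hc) hbc hb1
      have hkc : c * k = k * c := cen_eq_of_mem hcb hk2
      obtain ⟨y, hy, hyc, hxy⟩ := star x hx
      have e := h.thomp c hc hc1 y hy hyc k hk1 hkc
      have hk' : ∀ v ∈ B, k⁻¹ • v ∈ B := fun v hv => hBS _ (S.inv_mem hk1) v hv
      rw [mul_smul, mul_smul, hxy _ (hk' v hv), ← mul_smul, ← mul_smul, e, hxy v hv]
    · have hcb : c ∉ Subgroup.zpowers b := hE.notMem_symm hb hc1 hbc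
      obtain ⟨m, hm, rfl⟩ := tau_surj (cen S b) (f := c)
        (fun y hy => h.invS.conj_cen hE hc hb hy)
        (fun y hy hyf => by
          obtain ⟨hy1, hy2⟩ := mem_cen.mp hy
          refine h.invS.eq_one_of_comm hE hb hc hb1 hcb hy1 hy2 ?_
          calc c * y = (c * y * c⁻¹) * c := by group
            _ = y * c := by rw [hyf]) hk
      have hmS := (mem_cen.mp hm).1
      have hx₃ : c⁻¹ * x * c ∈ R := by simpa using h.invR.conj c⁻¹ (A.inv_mem hc) x hx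
      have hx₂ : m * (c⁻¹ * x * c) * m⁻¹ ∈ R := h.SR m hmS _ hx₃
      have hv' : m • v ∈ B := hBS m hmS v hv
      have e : m⁻¹ * (c * m * c⁻¹) * x * (m⁻¹ * (c * m * c⁻¹))⁻¹ =
          m⁻¹ * (c * (m * (c⁻¹ * x * c) * m⁻¹) * c⁻¹) * m := by group
      rw [e, mul_smul, mul_smul, H1 _ hx₂ _ hv', conj_smul_smul, inv_smul_smul]
      have h3 := H1 _ hx₃ v hv
      have e3 : c * (c⁻¹ * x * c) * c⁻¹ = x := by group
      rw [e3] at h3
      exact h3.symm)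
  have : g ∈ Y := by rw [hY]; exact hg
  exact this.2 x hx v hv

omit [Finite V] in
/-- Conjugates of the section `Z`. -/
theorem zconj_mem {W : AddSubgroup V} {x g : Γ} (hx : x ∈ R) (hxq : ∀ w ∈ W, x ^ q • w = w)
    (hxc : ∀ y ∈ R, ∀ w ∈ W, (x * y) • w = (y * x) • w)
    (hg1 : ∀ x ∈ R, g * x * g⁻¹ ∈ R) (hg2 : ∀ x ∈ R, g⁻¹ * x * g ∈ R)
    (hg3 : ∀ w ∈ W, g • w ∈ W) (hg4 : ∀ w ∈ W, g⁻¹ • w ∈ W) :
    (g * x * g⁻¹) ∈ R ∧ (∀ w ∈ W, (g * x * g⁻¹) ^ q • w = w) ∧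
      ∀ y ∈ R, ∀ w ∈ W, ((g * x * g⁻¹) * y) • w = (y * (g * x * g⁻¹)) • w := by
  refine ⟨hg1 x hx, fun w hw => ?_, fun y hy w hw => ?_⟩
  · rw [conj_pow, mul_smul, mul_smul, hxq _ (hg4 w hw), smul_inv_smul]
  · have e1 : (g * x * g⁻¹) * y = g * (x * (g⁻¹ * y * g)) * g⁻¹ := by group
    have e2 : y * (g * x * g⁻¹) = g * ((g⁻¹ * y * g) * x) * g⁻¹ := by group
    have e3 : ∀ B : Γ, (g * B * g⁻¹) • w = g • B • g⁻¹ • w := fun B => by rw [mul_smul, mul_smul]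
    rw [e1, e2, e3, e3, hxc _ (hg2 y hy) _ (hg4 w hw)]

/-- **The rigidity theorem.** -/
theorem rigid (n : ℕ) : ∀ W : AddSubgroup V, Nat.card W = n → (∀ a ∈ A, ∀ w ∈ W, a • w ∈ W) →
    (∀ x ∈ R, ∀ w ∈ W, x • w ∈ W) → (∀ g ∈ S, ∀ w ∈ W, g • w ∈ W) →
    ∀ x ∈ R, ∀ g ∈ S, ∀ w ∈ W, (g * x * g⁻¹) • w = x • w := by
  induction n using Nat.strong_induction_on with
  | _ n IH =>
  intro W hWn hWA hWR hWS x hx g hg w hw
  have hE := h.E
  have hgxg : g * x * g⁻¹ ∈ R := h.SR g hg x hx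
  by_cases hC : ∀ x ∈ R, ∀ w ∈ W, x • w = w
  · rw [hC _ hgxg w hw, hC x hx w hw]
  push Not at hC
  obtain ⟨x₁, hx₁, w₁, hw₁, hx₁w⟩ := hC
  -- the kernel
  let C : Subgroup Γ :=
    { carrier := {x | x ∈ R ∧ ∀ w ∈ W, x • w = w}
      mul_mem' := by
        rintro a b ⟨h1, h2⟩ ⟨k1, k2⟩
        exact ⟨R.mul_mem h1 k1, fun w hw => by rw [mul_smul, k2 w hw, h2 w hw]⟩
      one_mem' := ⟨R.one_mem, fun w _ => one_smul _ w⟩
      inv_mem' := by
        rintro a ⟨h1, h2⟩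
        exact ⟨R.inv_mem h1, fun w hw => by rw [inv_smul_eq_iff, h2 w hw]⟩ }
  have hCn : ∀ x ∈ R, ∀ c ∈ C, x * c * x⁻¹ ∈ C := by
    rintro x hx c ⟨hc1, hc2⟩
    refine ⟨R.mul_mem (R.mul_mem hx hc1) (R.inv_mem hx), fun w hw => ?_⟩
    rw [mul_smul, mul_smul, hc2 _ (hWR _ (R.inv_mem hx) w hw), smul_inv_smul]
  obtain ⟨x₀, hx₀, hx₀C, hx₀q, hx₀c⟩ := exists_central h.qprime R C hCn h.qgrp hx₁
    (fun hm => hx₁w (hm.2 w₁ hw₁))
  -- the section `Z`
  let Z : Subgroup Γ :=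
    { carrier := {x | x ∈ R ∧ (∀ w ∈ W, x ^ q • w = w) ∧ ∀ y ∈ R, ∀ w ∈ W, (x * y) • w = (y * x) • w}
      mul_mem' := by
        rintro a b ⟨h1, h2, h3⟩ ⟨k1, k2, k3⟩
        refine ⟨R.mul_mem h1 k1, fun w hw => ?_, fun y hy w hw => ?_⟩
        · rw [mul_pow_smul (hWR a h1) (hWR b k1) (h3 b k1) q w hw, k2 w hw, h2 w hw]
        · have e1 : a * b * y = a * (b * y) := by group
          have e2 : y * (a * b) = (y * a) * b := by group
          rw [e1, mul_smul, k3 y hy w hw, e2, mul_smul, mul_smul, ← h3 y hy _ (hWR b k1 w hw), mul_smul]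
      one_mem' := ⟨R.one_mem, fun w _ => by simp, fun y _ w _ => by simp⟩
      inv_mem' := by
        rintro a ⟨h1, h2, h3⟩
        refine ⟨R.inv_mem h1, fun w hw => ?_, fun y hy w hw => ?_⟩
        · rw [inv_pow, inv_smul_eq_iff, h2 w hw]
        · have hw' := hWR _ (R.inv_mem h1) w hw
          have h4 := h3 y hy _ hw'
          rw [mul_smul, mul_smul, smul_inv_smul] at h4
          rw [mul_smul, mul_smul, inv_smul_eq_iff, h4]
    }
  have hZR : Z ≤ R := fun x hx => hx.1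
  have hx₀Z : x₀ ∈ Z := by
    refine ⟨hx₀, hx₀q.2, fun y hy w hw => ?_⟩
    have h1 := (hx₀c y hy).2 _ (hWR _ (R.mul_mem hy hx₀) w hw)
    have e : x₀ * y * x₀⁻¹ * y⁻¹ * (y * x₀) = x₀ * y := by group
    rw [← mul_smul, e] at h1
    exact h1
  have hZg : ∀ g, (∀ x ∈ R, g * x * g⁻¹ ∈ R) → (∀ x ∈ R, g⁻¹ * x * g ∈ R) → (∀ w ∈ W, g • w ∈ W) →
      (∀ w ∈ W, g⁻¹ • w ∈ W) → ∀ z ∈ Z, g * z * g⁻¹ ∈ Z := by
    rintro g h1 h2 h3 h4 z ⟨hz1, hz2, hz3⟩
    exact h.zconj_mem hz1 hz2 hz3 h1 h2 h3 h4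
  have hZA : ∀ a ∈ A, ∀ z ∈ Z, a * z * a⁻¹ ∈ Z := by
    intro a ha
    exact hZg a (h.invR.conj a ha) (fun x hx => by simpa using h.invR.conj a⁻¹ (A.inv_mem ha) x hx)
      (hWA a ha) (hWA _ (A.inv_mem ha))
  have hZS : ∀ g ∈ S, ∀ z ∈ Z, g * z * g⁻¹ ∈ Z := by
    intro g hg
    exact hZg g (h.SR g hg) (fun x hx => h.SR' hg hx) (hWS g hg) (hWS _ (S.inv_mem hg))
  have hRV : (Nat.card R).Coprime (Nat.card V) := by
    haveI : Fact q.Prime := ⟨h.qprime⟩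
    obtain ⟨m, hm⟩ := IsPGroup.iff_card.mp h.qgrp
    rw [hm]
    exact Nat.Coprime.pow_left m h.qV
  have hZV : (Nat.card Z).Coprime (Nat.card V) :=
    Nat.Coprime.coprime_dvd_left (Subgroup.card_dvd_of_le hZR) hRV
  have hinvZ : Inv p A Z :=
    ⟨hZA, fun x hx hfix => h.invR.fix x hx.1 hfix,
      Nat.Coprime.coprime_dvd_right (Subgroup.card_dvd_of_le hZR) h.invR.cop⟩
  have hbase : Base p A W := ⟨hE, hWA, fun w _ hfix => h.Vfix w hfix⟩
  have hData : Data p q A Z S W :=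
    { base := hbase
      invZ := hinvZ
      invS := h.invS
      SZ := hZS
      WZ := fun x hx => hWR x hx.1
      WS := hWS
      ZV := hZV
      qprime := h.qprime
      qV := h.qV
      Zab := fun x hx y hy w hw => hx.2.2 y hy.1 w hw
      Zq := fun x hx w hw => hx.2.1 w hw
      thomp := fun c hc hc1 x hx hxc k hk hkc w _ => by
        rw [h.thomp c hc hc1 x hx.1 hxc k hk hkc] }
  have HZS : ∀ g ∈ S, ∀ z ∈ Z, ∀ w ∈ W, (g * z * g⁻¹) • w = z • w :=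
    fun g hg z hz w hw => hData.main hg hz hw
  -- `W₀ = C_W(Z)`
  let W₀ : AddSubgroup V :=
    { carrier := {w | w ∈ W ∧ ∀ z ∈ Z, z • w = w}
      add_mem' := by
        rintro a b ⟨h1, h2⟩ ⟨k1, k2⟩
        exact ⟨W.add_mem h1 k1, fun z hz => by rw [smul_add, h2 z hz, k2 z hz]⟩
      zero_mem' := ⟨W.zero_mem, fun z _ => smul_zero _⟩
      neg_mem' := by
        rintro a ⟨h1, h2⟩
        exact ⟨W.neg_mem h1, fun z hz => by rw [smul_neg, h2 z hz]⟩ }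
  have hW₀lt : Nat.card W₀ < n := by
    rw [← hWn]
    show Nat.card (W₀ : Set V) < Nat.card (W : Set V)
    rw [Nat.card_coe_set_eq, Nat.card_coe_set_eq]
    apply Set.ncard_lt_ncard _ (Set.toFinite _)
    refine ⟨fun w hw => hw.1, fun hsub => ?_⟩
    apply hx₀C
    refine ⟨hx₀, fun w hw => ?_⟩
    exact (hsub hw : w ∈ W₀).2 x₀ hx₀Z
  have hW₀g : ∀ g, (∀ z ∈ Z, g⁻¹ * z * g ∈ Z) → (∀ w ∈ W, g • w ∈ W) → ∀ w ∈ W₀, g • w ∈ W₀ := by
    rintro g h1 h2 w ⟨hw1, hw2⟩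
    refine ⟨h2 w hw1, fun z hz => ?_⟩
    have e := conj_smul_smul g (g⁻¹ * z * g) w
    have e2 : g * (g⁻¹ * z * g) * g⁻¹ = z := by group
    rw [e2, hw2 _ (h1 z hz)] at e
    exact e
  have hIH := IH _ hW₀lt W₀ rfl
    (fun a ha => hW₀g a (fun z hz => by simpa using hZA a⁻¹ (A.inv_mem ha) z hz) (hWA a ha))
    (fun x hx => hW₀g x (fun z hz => by
      simpa using hZg x⁻¹ (fun y hy => by simpa using R.mul_mem (R.mul_mem (R.inv_mem hx) hy) hx)
        (fun y hy => by simpa using R.mul_mem (R.mul_mem hx hy) (R.inv_mem hx))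
        (hWR _ (R.inv_mem hx)) (by simpa using hWR x hx) z hz) (hWR x hx))
    (fun g hg => hW₀g g (fun z hz => by simpa using hZS g⁻¹ (S.inv_mem hg) z hz) (hWS g hg))
  -- the target subgroup `D`
  let D : AddSubgroup V :=
    { carrier := {v | ∀ x ∈ R, ∀ g ∈ S, (g * x * g⁻¹) • v = x • v}
      add_mem' := by
        intro a b ha hb x hx g hg
        rw [smul_add, smul_add, ha x hx g hg, hb x hx g hg]
      zero_mem' := fun x _ g _ => by simp
      neg_mem' := by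
        intro a ha x hx g hg
        rw [smul_neg, smul_neg, ha x hx g hg] }
  have hDR : ∀ x ∈ R, ∀ v ∈ D, x • v ∈ D := by
    intro x₁ hx₁ v hv x hx g hg
    have hx₂ : g⁻¹ * x₁ * g ∈ R := h.SR' hg hx₁
    have e : (g * x * g⁻¹) * x₁ = g * (x * (g⁻¹ * x₁ * g)) * g⁻¹ := by group
    rw [← mul_smul, e, hv _ (R.mul_mem hx hx₂) g hg, mul_smul]
    have h1 := hv x₁ hx₁ g⁻¹ (S.inv_mem hg)
    rw [inv_inv] at h1
    rw [h1]
  have hblock : ∀ c ∈ A, c ≠ 1 → ∀ y ∈ Z, c * y = y * c → ∀ w ∈ W, y • w - w ∈ D := by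
    intro c hc hc1 y hy hyc w hw
    let B : AddSubgroup V := AddSubgroup.closure {v | ∃ y ∈ Z, c * y = y * c ∧ ∃ w ∈ W, v = y • w - w}
    have hgen : y • w - w ∈ B := AddSubgroup.subset_closure ⟨y, hy, hyc, w, hw, rfl⟩
    have hstable : ∀ g : Γ, (∀ y ∈ Z, c * y = y * c → ∀ w ∈ W, g • (y • w - w) ∈ B) →
        ∀ v ∈ B, g • v ∈ B := by
      intro g hg v hv
      induction hv using AddSubgroup.closure_induction with
      | mem v hv =>
        obtain ⟨y, hy, hyc, w, hw, rfl⟩ := hv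
        exact hg y hy hyc w hw
      | zero => rw [smul_zero]; exact B.zero_mem
      | add a b _ _ ha hb => rw [smul_add]; exact B.add_mem ha hb
      | neg a _ ha => rw [smul_neg]; exact B.neg_mem ha
    have hBR : ∀ x ∈ R, ∀ v ∈ B, x • v ∈ B := fun x hx => hstable x (fun y hy hyc w hw => by
      have e : x • (y • w - w) = y • (x • w) - x • w := by
        rw [smul_sub, ← mul_smul, ← hy.2.2 x hx w hw, mul_smul]
      rw [e]
      exact AddSubgroup.subset_closure ⟨y, hy, hyc, x • w, hWR x hx w hw, rfl⟩)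
    have hBS : ∀ g ∈ S, ∀ v ∈ B, g • v ∈ B := fun g hg => hstable g (fun y hy hyc w hw => by
      have e : g • (y • w - w) = y • (g • w) - g • w := by
        rw [smul_sub, ← HZS g hg y hy _ (hWS g hg w hw), conj_smul_smul]
      rw [e]
      exact AddSubgroup.subset_closure ⟨y, hy, hyc, g • w, hWS g hg w hw, rfl⟩)
    have hBA : ∀ a ∈ A, ∀ v ∈ B, a • v ∈ B := fun a ha => hstable a (fun y hy hyc w hw => by
      have e : a • (y • w - w) = (a * y * a⁻¹) • (a • w) - a • w := by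
        rw [smul_sub, conj_smul_smul]
      rw [e]
      have h1 : a * y * a⁻¹ ∈ cen Z c := hinvZ.conj_cen hE ha hc (mem_cen.mpr ⟨hy, hyc⟩)
      exact AddSubgroup.subset_closure
        ⟨_, (mem_cen.mp h1).1, (mem_cen.mp h1).2, a • w, hWA a ha w hw, rfl⟩)
    have hF : ∀ d ∈ A, d ∉ Subgroup.zpowers c → ∀ u ∈ R, d * u = u * d → ∀ v ∈ B, u • v = v := by
      intro d hd hdc u hu hud v hv
      have hd1 : d ≠ 1 := IsE.ne_one_of_notMem hE hdc
      induction hv using AddSubgroup.closure_induction with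
      | mem v hv =>
        obtain ⟨y, hy, hyc, w, hw, rfl⟩ := hv
        exact hbase.comm_triv hinvZ (fun x hx => hWR x hx.1) hZV hc hd hc1 hdc hy hyc (hWR u hu)
          (fun w hw hdw => hbase.fr h.invR hWR hRV hd hd1 hu hud hw hdw)
          (fun g hg w hw => (hg.2.2 u hu w hw).symm) hw
      | zero => rw [smul_zero]
      | add a b _ _ ha hb => rw [smul_add, ha, hb]
      | neg a _ ha => rw [smul_neg, ha]
    exact fun x hx g hg => h.on_block hc hc1 B hBR hBS hBA hF hg hx hgen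
  let E' : Subgroup Γ :=
    { carrier := {z | z ∈ Z ∧ ∀ w ∈ W, z • w - w ∈ D}
      mul_mem' := by
        rintro a b ⟨h1, h2⟩ ⟨k1, k2⟩
        refine ⟨Z.mul_mem h1 k1, fun w hw => ?_⟩
        have e : (a * b) • w - w = a • (b • w - w) + (a • w - w) := by
          rw [smul_sub, mul_smul]; abel
        rw [e]
        exact D.add_mem (hDR a h1.1 _ (k2 w hw)) (h2 w hw)
      one_mem' := ⟨Z.one_mem, fun w _ => by rw [one_smul, sub_self]; exact D.zero_mem⟩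
      inv_mem' := by
        rintro a ⟨h1, h2⟩
        refine ⟨Z.inv_mem h1, fun w hw => ?_⟩
        have h3 := h2 _ (hWR _ (R.inv_mem h1.1) w hw)
        have e : a⁻¹ • w - w = -(a • (a⁻¹ • w) - a⁻¹ • w) := by
          rw [smul_inv_smul]; abel
        rw [e]
        exact D.neg_mem h3 }
  have hE' : E' = Z := hinvZ.gen hE (fun x hx => hx.1) (fun e he he1 z hz =>
    ⟨(mem_cen.mp hz).1, fun w hw => hblock e he he1 z (mem_cen.mp hz).1 (mem_cen.mp hz).2 w hw⟩)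
  classical
  haveI := Fintype.ofFinite Z
  have hNW₀ : ∑ z : Z, (z : Γ) • w ∈ W₀ := by
    refine ⟨W.sum_mem fun z _ => hWR _ z.2.1 w hw, fun z hz => ?_⟩
    rw [Finset.smul_sum]
    refine Fintype.sum_equiv (Equiv.mulLeft (⟨z, hz⟩ : Z)) _ _ fun y => ?_
    simp [mul_smul]
  have hND : ∑ z : Z, (z : Γ) • w ∈ D := fun x hx g hg => hIH x hx g hg _ hNW₀
  have hSD : ∑ z : Z, ((z : Γ) • w - w) ∈ D := by
    refine D.sum_mem fun z _ => ?_
    have : (z : Γ) ∈ E' := by rw [hE']; exact z.2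
    exact this.2 w hw
  have hcard : Nat.card Z • w = ∑ z : Z, (z : Γ) • w - ∑ z : Z, ((z : Γ) • w - w) := by
    rw [Finset.sum_sub_distrib]
    simp [Nat.card_eq_fintype_card]
  have hwD : Nat.card Z • w ∈ D := by
    rw [hcard]; exact D.sub_mem hND hSD
  have h1 := hwD x hx g hg
  have h2 : Nat.card Z • ((g * x * g⁻¹) • w - x • w) = 0 := by
    rw [smul_sub, smul_comm, smul_comm _ x, h1, sub_self]
  exact sub_eq_zero.mp (nsmul_cancel hZV h2)

end Data3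

end Cfsg.Agent.Lib.Ward.Rigid
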