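import Cfsg.Agent.Lib.Ward.Norm
import Cfsg.Agent.Lib.Coprime.Generation

/-!
# Ward's theorem, part 2: elementary abelian `A` of order `p²`, generation, a stabilizer lemma.
-/

set_option autoImplicit false

namespace Cfsg.Agent.Lib.Ward.Setup

open Cfsg.Agent.Lib.Ward.Norm

variable {Γ : Type*} [Group Γ] [Finite Γ]

/-- Elementary abelian of order `p²`. -/
structure IsE (p : ℕ) (A : Subgroup Γ) : Prop where
  prime : p.Prime
  comm : ∀ x ∈ A, ∀ y ∈ A, x * y = y * x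
  pow : ∀ x ∈ A, x ^ p = 1
  card : Nat.card A = p ^ 2

omit [Finite Γ] in
theorem pow_mem_of_pow_mem {p : ℕ} (hp : p.Prime) (P : Subgroup Γ) {c : Γ} (hc : c ^ p = 1) {i : ℕ}
    (hi : ¬ p ∣ i) (h : c ^ i ∈ P) : c ∈ P := by
  have hc2 : Nat.Coprime i p := ((Nat.Prime.coprime_iff_not_dvd hp).mpr hi).symm
  obtain ⟨m, -, hm⟩ := Nat.exists_mul_mod_eq_one_of_coprime hc2 hp.one_lt
  have : c = (c ^ i) ^ m := by
    rw [← pow_mul, pow_eq_pow_mod _ hc, hm, pow_one]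
  rw [this]
  exact P.pow_mem h m

/-- Powers: a nontrivial element of `⟨c⟩` generates `c`. -/
theorem mem_zpowers_symm {p : ℕ} (hp : p.Prime) {c d : Γ} (hc : c ^ p = 1) (hd : d ∈ Subgroup.zpowers c)
    (hd1 : d ≠ 1) : c ∈ Subgroup.zpowers d := by
  haveI : Fact p.Prime := ⟨hp⟩
  have hord : orderOf c = p := orderOf_eq_prime hc (by
    rintro rfl
    exact hd1 (by simpa using hd))
  obtain ⟨n, rfl⟩ := (mem_powers_iff_mem_zpowers).mpr hd
  apply pow_mem_of_pow_mem hp _ hc (i := n)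
  · intro hn
    apply hd1
    rw [← orderOf_dvd_iff_pow_eq_one, hord]
    exact hn
  · exact Subgroup.mem_zpowers _

namespace IsE

variable {p : ℕ} {A : Subgroup Γ} (hE : IsE p A)
include hE

/-- Coordinates: any element is `c^m b^j` if `c ∉ ⟨b⟩`. -/
theorem eq_pow_mul_pow {b c : Γ} (hb : b ∈ A) (hc : c ∈ A) (hb1 : b ≠ 1)
    (hcb : c ∉ Subgroup.zpowers b) {x : Γ} (hx : x ∈ A) : ∃ m j : ℕ, x = c ^ m * b ^ j := by
  classical
  have hp := hE.prime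
  haveI : NeZero p := ⟨hp.ne_zero⟩
  haveI : Fact p.Prime := ⟨hp⟩
  have hbord : orderOf b = p := orderOf_eq_prime (hE.pow b hb) hb1
  let f : Fin p × Fin p → A := fun t =>
    ⟨c ^ (t.1 : ℕ) * b ^ (t.2 : ℕ), A.mul_mem (A.pow_mem hc _) (A.pow_mem hb _)⟩
  have hinj : Function.Injective f := by
    rintro ⟨m, j⟩ ⟨m', j'⟩ h
    have h1 : c ^ (m : ℕ) * b ^ (j : ℕ) = c ^ (m' : ℕ) * b ^ (j' : ℕ) := congrArg Subtype.val h
    have hm : (m : ℕ) = m' := by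
      by_contra hne
      wlog hlt : (m : ℕ) < m' generalizing m m' j j'
      · exact this m' j' m j (Subtype.ext h1.symm) h1.symm (Ne.symm hne)
          (lt_of_le_of_ne (not_lt.mp hlt) (Ne.symm hne))
      have h2 : c ^ ((m' : ℕ) - m) ∈ Subgroup.zpowers b := by
        have h3 : c ^ (m' : ℕ) = c ^ (m : ℕ) * c ^ ((m' : ℕ) - m) := by
          rw [← pow_add]; congr 1; omega
        have h4 : c ^ ((m' : ℕ) - m) = b ^ (j : ℕ) * (b ^ (j' : ℕ))⁻¹ := by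
          rw [h3, mul_assoc] at h1
          have h5 := mul_left_cancel h1
          rw [eq_mul_inv_iff_mul_eq]
          exact h5.symm
        rw [h4]
        exact Subgroup.mul_mem _ (Subgroup.pow_mem _ (Subgroup.mem_zpowers b) _)
          (Subgroup.inv_mem _ (Subgroup.pow_mem _ (Subgroup.mem_zpowers b) _))
      refine hcb (pow_mem_of_pow_mem hp _ (hE.pow c hc) ?_ h2)
      intro hdvd
      have h6 := Nat.le_of_dvd (by omega) hdvd
      have := m'.2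
      omega
    have hj : b ^ (j : ℕ) = b ^ (j' : ℕ) := by
      rw [hm] at h1
      exact mul_left_cancel h1
    have hj2 : (j : ℕ) = j' := by
      have := pow_injOn_Iio_orderOf (x := b)
      rw [hbord] at this
      exact this (by simpa using j.2) (by simpa using j'.2) hj
    exact Prod.ext (Fin.ext hm) (Fin.ext hj2)
  have hbij : Function.Bijective f := by
    apply hinj.bijective_of_nat_card_le
    rw [hE.card, Nat.card_prod, Nat.card_eq_fintype_card, Fintype.card_fin, sq]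
  obtain ⟨⟨m, j⟩, hmj⟩ := hbij.2 ⟨x, hx⟩
  exact ⟨m, j, (congrArg Subtype.val hmj).symm⟩

/-- Any subgroup containing `b ≠ 1` and `c ∉ ⟨b⟩` (both in `A`) contains `A`. -/
theorem le_of_mem {b c : Γ} (hb : b ∈ A) (hc : c ∈ A) (hb1 : b ≠ 1)
    (hcb : c ∉ Subgroup.zpowers b) (P : Subgroup Γ) (hbP : b ∈ P) (hcP : c ∈ P) : A ≤ P := by
  intro x hx
  obtain ⟨m, j, rfl⟩ := hE.eq_pow_mul_pow hb hc hb1 hcb hx
  exact P.mul_mem (P.pow_mem hcP _) (P.pow_mem hbP _)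

/-- Every `d` has some element of `A` outside `⟨d⟩`. -/
theorem exists_notMem_zpowers {d : Γ} (hd : d ∈ A) : ∃ b ∈ A, b ∉ Subgroup.zpowers d := by
  by_contra hcon
  push Not at hcon
  have hle : A ≤ Subgroup.zpowers d := hcon
  have hcard : Nat.card A ≤ Nat.card (Subgroup.zpowers d) :=
    Subgroup.card_le_of_le hle
  have hp := hE.prime
  have h1 : Nat.card (Subgroup.zpowers d) ≤ p := by
    rw [Nat.card_zpowers]
    exact Nat.le_of_dvd hp.pos (orderOf_dvd_of_pow_eq_one (hE.pow d hd))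
  rw [hE.card] at hcard
  have h2 := hp.one_lt
  nlinarith

theorem exists_ne_one : ∃ d ∈ A, d ≠ 1 := by
  obtain ⟨b, hb, hb2⟩ := hE.exists_notMem_zpowers A.one_mem
  refine ⟨b, hb, ?_⟩
  rintro rfl
  exact hb2 (Subgroup.one_mem _)

/-- `c ∉ ⟨b⟩` is symmetric for nontrivial elements. -/
theorem notMem_symm {b c : Γ} (hc : c ∈ A) (hb1 : b ≠ 1)
    (hcb : c ∉ Subgroup.zpowers b) : b ∉ Subgroup.zpowers c :=
  fun h => hcb (mem_zpowers_symm hE.prime (hE.pow c hc) h hb1)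

theorem ne_one_of_notMem {b c : Γ} (hcb : c ∉ Subgroup.zpowers b) : c ≠ 1 := by
  rintro rfl
  exact hcb (Subgroup.one_mem _)

end IsE

omit [Finite Γ] in
/-- The centralizer of `c` in `K`. -/
def cen (K : Subgroup Γ) (c : Γ) : Subgroup Γ := K ⊓ Subgroup.centralizer ({c} : Set Γ)

omit [Finite Γ] in
theorem mem_cen {K : Subgroup Γ} {c x : Γ} : x ∈ cen K c ↔ x ∈ K ∧ c * x = x * c := by
  unfold cen
  rw [Subgroup.mem_inf, Subgroup.mem_centralizer_singleton_iff]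
  constructor
  · rintro ⟨h1, h2⟩; exact ⟨h1, h2.symm⟩
  · rintro ⟨h1, h2⟩; exact ⟨h1, h2.symm⟩

omit [Finite Γ] in
theorem cen_eq_of_mem {b c : Γ} (h : c ∈ Subgroup.zpowers b) {x : Γ}
    (hx : b * x = x * b) : c * x = x * c := by
  obtain ⟨n, rfl⟩ := h
  have : Commute b x := hx
  exact (this.zpow_left n)

/-- `K` invariant under `A`, no fixed point, coprime. -/
structure Inv (p : ℕ) (A K : Subgroup Γ) : Prop where
  conj : ∀ a ∈ A, ∀ x ∈ K, a * x * a⁻¹ ∈ K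
  fix : ∀ x ∈ K, (∀ a ∈ A, a * x * a⁻¹ = x) → x = 1
  cop : p.Coprime (Nat.card K)

namespace Inv

variable {p : ℕ} {A K : Subgroup Γ} (hK : Inv p A K) (hE : IsE p A)
include hK hE

/-- Generation of `K` by the `C_K(e)`. -/
theorem gen {Y : Subgroup Γ} (hYK : Y ≤ K) (h : ∀ e ∈ A, e ≠ 1 → cen K e ≤ Y) : Y = K := by
  haveI : Fact p.Prime := ⟨hE.prime⟩
  obtain ⟨y, hy, hy1⟩ := hE.exists_ne_one
  obtain ⟨x, hx, hxy⟩ := hE.exists_notMem_zpowers hy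
  have hAK : A ≤ Subgroup.normalizer (K : Set Γ) := by
    intro a ha
    rw [Subgroup.mem_normalizer_iff]
    intro z
    constructor
    · exact hK.conj a ha z
    · intro hz
      have := hK.conj a⁻¹ (A.inv_mem ha) _ hz
      simpa [mul_assoc] using this
  have hcop : (Nat.card A).Coprime (Nat.card K) := by
    rw [hE.card]
    exact Nat.Coprime.pow_left 2 hK.cop
  have hsolv : Group.IsSolvable A := by
    apply Group.isSolvable_of_comm
    intro a b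
    exact Subtype.ext (hE.comm a a.2 b b.2)
  refine Cfsg.Agent.Lib.Coprime.Generation.generation (q := p) K Y A hAK hcop (Or.inl hsolv) hK.cop
    hx hy (hE.comm x hx y hy) ?_ ?_ hYK (h y hy hy1) ?_
  · rw [hE.pow x hx]; exact Subgroup.one_mem _
  · rw [hE.pow y hy]; exact Subgroup.one_mem _
  · intro j
    apply h _ (A.mul_mem hx (A.pow_mem hy j))
    intro he
    apply hxy
    have : x = (y ^ j)⁻¹ := eq_inv_of_mul_eq_one_left he
    rw [this]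
    exact Subgroup.inv_mem _ (Subgroup.pow_mem _ (Subgroup.mem_zpowers y) j)

/-- An element of `K` commuting with `c` and `d ∉ ⟨c⟩` is trivial. -/
theorem eq_one_of_comm {c d y : Γ} (hc : c ∈ A) (hd : d ∈ A) (hc1 : c ≠ 1)
    (hdc : d ∉ Subgroup.zpowers c) (hy : y ∈ K) (h1 : c * y = y * c) (h2 : d * y = y * d) : y = 1 := by
  apply hK.fix y hy
  have hle := hE.le_of_mem hc hd hc1 hdc (Subgroup.centralizer ({y} : Set Γ))
    (Subgroup.mem_centralizer_singleton_iff.mpr h1)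
    (Subgroup.mem_centralizer_singleton_iff.mpr h2)
  intro a ha
  have h3 := Subgroup.mem_centralizer_singleton_iff.mp (hle ha)
  rw [h3]; group

/-- `A` normalizes `C_K(c)`. -/
theorem conj_cen {a c x : Γ} (ha : a ∈ A) (hc : c ∈ A) (hx : x ∈ cen K c) : a * x * a⁻¹ ∈ cen K c := by
  obtain ⟨hx1, hx2⟩ := mem_cen.mp hx
  refine mem_cen.mpr ⟨hK.conj a ha x hx1, ?_⟩
  have h1 : Commute c a := hE.comm c hc a ha
  have h2 : Commute c x := hx2
  exact ((h1.mul_right h2).mul_right h1.inv_right)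

end Inv

/-- `m ↦ m⁻¹ (f m f⁻¹)` is onto on a subgroup with no `f`-fixed points. -/
theorem tau_surj (K : Subgroup Γ) {f : Γ} (hfK : ∀ k ∈ K, f * k * f⁻¹ ∈ K)
    (hfix : ∀ k ∈ K, f * k * f⁻¹ = k → k = 1) {x : Γ} (hx : x ∈ K) :
    ∃ m ∈ K, x = m⁻¹ * (f * m * f⁻¹) := by
  let τ : K → K := fun m => ⟨(m : Γ)⁻¹ * (f * m * f⁻¹), K.mul_mem (K.inv_mem m.2) (hfK _ m.2)⟩
  have hinj : Function.Injective τ := by
    intro m n hmn
    have h1 : (m : Γ)⁻¹ * (f * m * f⁻¹) = (n : Γ)⁻¹ * (f * n * f⁻¹) := congrArg Subtype.val hmn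
    have h2 : f * ((m : Γ) * (n : Γ)⁻¹) * f⁻¹ = (m : Γ) * (n : Γ)⁻¹ := by
      calc f * ((m : Γ) * (n : Γ)⁻¹) * f⁻¹ = m * ((m : Γ)⁻¹ * (f * m * f⁻¹)) * (f * (n : Γ)⁻¹ * f⁻¹) := by group
        _ = m * ((n : Γ)⁻¹ * (f * n * f⁻¹)) * (f * (n : Γ)⁻¹ * f⁻¹) := by rw [h1]
        _ = (m : Γ) * (n : Γ)⁻¹ := by group
    have h3 := hfix _ (K.mul_mem m.2 (K.inv_mem n.2)) h2
    apply Subtype.ext
    exact mul_inv_eq_one.mp h3
  obtain ⟨m, hm⟩ := (Finite.injective_iff_surjective.mp hinj) ⟨x, hx⟩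
  exact ⟨m, m.2, (congrArg Subtype.val hm).symm⟩

/-- The stabilizer lemma: let `a, b ∈ A`, `a ∈ T`, `b ∉ T`, `b` centralizes `K`, `a` normalizes `K`
without fixed points. If each conjugate `k T k⁻¹`, `k ∈ K`, contains a nontrivial element of `A`, then
`K ≤ T`. -/
theorem stab_le {p : ℕ} {A : Subgroup Γ} (hE : IsE p A) (K T : Subgroup Γ) {a b : Γ} (ha : a ∈ A)
    (hb : b ∈ A) (haT : a ∈ T) (hbT : b ∉ T) (hbK : ∀ k ∈ K, k * b = b * k)
    (haK : ∀ k ∈ K, a * k * a⁻¹ ∈ K) (hfix : ∀ k ∈ K, a * k * a⁻¹ = k → k = 1)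
    (hT : ∀ k ∈ K, ∃ c ∈ A, c ≠ 1 ∧ k⁻¹ * c * k ∈ T) : K ≤ T := by
  have hb1 : b ≠ 1 := by
    rintro rfl
    exact hbT T.one_mem
  -- `τ k ∈ T → k ∈ T`
  have key : ∀ k ∈ K, k⁻¹ * (a * k * a⁻¹) ∈ T → k ∈ T := by
    intro k hk hτ
    have hK1 : k⁻¹ * (a * k * a⁻¹) ∈ K ⊓ T :=
      Subgroup.mem_inf.mpr ⟨K.mul_mem (K.inv_mem hk) (haK k hk), hτ⟩
    obtain ⟨m, hm, hme⟩ := tau_surj (K ⊓ T) (f := a)
      (fun k hk => Subgroup.mem_inf.mpr ⟨haK k (Subgroup.mem_inf.mp hk).1,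
        T.mul_mem (T.mul_mem haT (Subgroup.mem_inf.mp hk).2) (T.inv_mem haT)⟩)
      (fun k hk => hfix k (Subgroup.mem_inf.mp hk).1) hK1
    obtain ⟨hm1, hm2⟩ := Subgroup.mem_inf.mp hm
    -- injectivity
    have h2 : a * (k * m⁻¹) * a⁻¹ = k * m⁻¹ := by
      calc a * (k * m⁻¹) * a⁻¹ = k * (k⁻¹ * (a * k * a⁻¹)) * (a * m⁻¹ * a⁻¹) := by group
        _ = k * (m⁻¹ * (a * m * a⁻¹)) * (a * m⁻¹ * a⁻¹) := by rw [hme]
        _ = k * m⁻¹ := by group
    have h3 := hfix _ (K.mul_mem hk (K.inv_mem hm1)) h2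
    have h4 : k = m := mul_inv_eq_one.mp h3
    rw [h4]; exact hm2
  intro k hk
  obtain ⟨c, hc, hc1, hct⟩ := hT k hk
  have hbk : ∀ (j : ℕ) (k : Γ), k ∈ K → k * b ^ j = b ^ j * k := by
    intro j k hk
    have : Commute k b := hbK k hk
    exact (this.pow_right j)
  by_cases hcb : c ∈ Subgroup.zpowers b
  · exfalso
    have h1 : b ∈ Subgroup.zpowers c := mem_zpowers_symm hE.prime (hE.pow b hb) hcb hc1
    obtain ⟨j, rfl⟩ := (mem_powers_iff_mem_zpowers).mpr hcb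
    have h2 : k⁻¹ * b ^ j * k = b ^ j := by
      rw [mul_assoc, ← hbk j k hk]; group
    rw [h2] at hct
    have h3 : Subgroup.zpowers (b ^ j) ≤ T := by
      rw [Subgroup.zpowers_le]; exact hct
    exact hbT (h3 h1)
  · obtain ⟨m, j, hmj⟩ := hE.eq_pow_mul_pow hb hc hb1 hcb ha
    have hab : ∀ i : ℕ, a * b ^ i = b ^ i * a := by
      intro i
      have : Commute a b := hE.comm a ha b hb
      exact this.pow_right i
    -- `c^m = a b^{-j}`
    have h1 : k⁻¹ * c ^ m * k ∈ T := by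
      have : k⁻¹ * c ^ m * k = (k⁻¹ * c * k) ^ m := by
        have h := conj_pow (a := k⁻¹) (b := c) (i := m)
        simpa using h.symm
      rw [this]; exact T.pow_mem hct m
    have hcm : c ^ m = a * (b ^ j)⁻¹ := by rw [hmj]; group
    rw [hcm] at h1
    set τ := k⁻¹ * (a * k * a⁻¹) with hτ
    have hτK : τ ∈ K := K.mul_mem (K.inv_mem hk) (haK k hk)
    have hbinv : ∀ (k : Γ), k ∈ K → k * (b ^ j)⁻¹ = (b ^ j)⁻¹ * k := by
      intro k hk
      have h := hbk j k hk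
      calc k * (b ^ j)⁻¹ = (b ^ j)⁻¹ * (b ^ j * k) * (b ^ j)⁻¹ := by group
        _ = (b ^ j)⁻¹ * (k * b ^ j) * (b ^ j)⁻¹ := by rw [h]
        _ = (b ^ j)⁻¹ * k := by group
    have habinv : a * (b ^ j)⁻¹ = (b ^ j)⁻¹ * a := by
      have h := hab j
      calc a * (b ^ j)⁻¹ = (b ^ j)⁻¹ * (b ^ j * a) * (b ^ j)⁻¹ := by group
        _ = (b ^ j)⁻¹ * (a * b ^ j) * (b ^ j)⁻¹ := by rw [h]
        _ = (b ^ j)⁻¹ * a := by group
    have h2 : τ * (b ^ j)⁻¹ ∈ T := by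
      have e : τ * (b ^ j)⁻¹ = (k⁻¹ * (a * (b ^ j)⁻¹) * k) * a⁻¹ := by
        rw [hτ]
        have := hbinv k hk
        calc k⁻¹ * (a * k * a⁻¹) * (b ^ j)⁻¹ = k⁻¹ * a * k * (b ^ j)⁻¹ * a⁻¹ := by
              have h3 : a⁻¹ * (b ^ j)⁻¹ = (b ^ j)⁻¹ * a⁻¹ := by
                have h4 : a * (b ^ j)⁻¹ * a⁻¹ = (b ^ j)⁻¹ := by rw [habinv]; group
                calc a⁻¹ * (b ^ j)⁻¹ = a⁻¹ * (a * (b ^ j)⁻¹ * a⁻¹) := by rw [h4]
                  _ = (b ^ j)⁻¹ * a⁻¹ := by group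
              simp only [mul_assoc, h3]
          _ = k⁻¹ * a * (b ^ j)⁻¹ * k * a⁻¹ := by rw [mul_assoc (k⁻¹ * a) k, this, ← mul_assoc]
          _ = k⁻¹ * (a * (b ^ j)⁻¹) * k * a⁻¹ := by group
      rw [e]
      exact T.mul_mem h1 (T.inv_mem haT)
    have h3 : (τ * (b ^ j)⁻¹)⁻¹ * (a * (τ * (b ^ j)⁻¹) * a⁻¹) ∈ T :=
      T.mul_mem (T.inv_mem h2) (T.mul_mem (T.mul_mem haT h2) (T.inv_mem haT))
    have h4 : (τ * (b ^ j)⁻¹)⁻¹ * (a * (τ * (b ^ j)⁻¹) * a⁻¹) = τ⁻¹ * (a * τ * a⁻¹) := by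
      have h5 : a * (τ * (b ^ j)⁻¹) * a⁻¹ = (a * τ * a⁻¹) * (b ^ j)⁻¹ := by
        calc a * (τ * (b ^ j)⁻¹) * a⁻¹ = a * τ * ((b ^ j)⁻¹ * a⁻¹) := by group
          _ = a * τ * (a⁻¹ * (b ^ j)⁻¹) := by
              have h4 : a * (b ^ j)⁻¹ * a⁻¹ = (b ^ j)⁻¹ := by rw [habinv]; group
              congr 1
              calc (b ^ j)⁻¹ * a⁻¹ = a⁻¹ * (a * (b ^ j)⁻¹ * a⁻¹) := by group
                _ = a⁻¹ * (b ^ j)⁻¹ := by rw [h4]
          _ = (a * τ * a⁻¹) * (b ^ j)⁻¹ := by group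
      rw [h5]
      have h6 := hbinv _ (haK τ hτK)
      calc (τ * (b ^ j)⁻¹)⁻¹ * (a * τ * a⁻¹ * (b ^ j)⁻¹) = b ^ j * τ⁻¹ * ((a * τ * a⁻¹) * (b ^ j)⁻¹) := by group
        _ = b ^ j * τ⁻¹ * ((b ^ j)⁻¹ * (a * τ * a⁻¹)) := by rw [h6]
        _ = (b ^ j * (τ⁻¹ * (b ^ j)⁻¹)) * (a * τ * a⁻¹) := by group
        _ = (b ^ j * ((b ^ j)⁻¹ * τ⁻¹)) * (a * τ * a⁻¹) := by
            rw [hbinv _ (K.inv_mem hτK)]
        _ = τ⁻¹ * (a * τ * a⁻¹) := by group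
    rw [h4] at h3
    exact key k hk (key τ hτK h3)

end Cfsg.Agent.Lib.Ward.Setup
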